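import Mathlib

/-!
Congruences between short sums of powers of two modulo a large divisor of `2 ^ n - 1`.
-/

set_option autoImplicit false

namespace Cfsg.Lib.Shaw

theorem two_pow_mod (n x : ℕ) : 2 ^ x ≡ 2 ^ (x % n) [MOD 2 ^ n - 1] := by
  have h1 : 2 ^ n ≡ 1 [MOD 2 ^ n - 1] :=
    ((Nat.modEq_iff_dvd' (Nat.one_le_two_pow)).2 dvd_rfl).symm
  conv_lhs => rw [← Nat.div_add_mod x n, pow_add, pow_mul]
  simpa using (h1.pow (x / n)).mul_right (2 ^ (x % n))

/-- The three-against-two congruence lifts from `o` to `2 ^ n - 1`. -/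
def P32 (n o a b c d f : ℕ) : Prop :=
  2 ^ a + 2 ^ b + 2 ^ c ≡ 2 ^ d + 2 ^ f [MOD o] →
    2 ^ a + 2 ^ b + 2 ^ c ≡ 2 ^ d + 2 ^ f [MOD 2 ^ n - 1]

theorem P32.shift {n o a b c d f : ℕ} (hn : 0 < n) (ho : o ∣ 2 ^ n - 1) (r : ℕ)
    (h : P32 n o ((a + r) % n) ((b + r) % n) ((c + r) % n) ((d + r) % n) ((f + r) % n)) :
    P32 n o a b c d f := by
  intro h1
  have e1 : (2 ^ a + 2 ^ b + 2 ^ c) * 2 ^ r ≡
      2 ^ ((a + r) % n) + 2 ^ ((b + r) % n) + 2 ^ ((c + r) % n) [MOD 2 ^ n - 1] := by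
    rw [add_mul, add_mul, ← pow_add, ← pow_add, ← pow_add]
    exact ((two_pow_mod n _).add (two_pow_mod n _)).add (two_pow_mod n _)
  have e2 : (2 ^ d + 2 ^ f) * 2 ^ r ≡ 2 ^ ((d + r) % n) + 2 ^ ((f + r) % n) [MOD 2 ^ n - 1] := by
    rw [add_mul, ← pow_add, ← pow_add]
    exact (two_pow_mod n _).add (two_pow_mod n _)
  have h2 := h (((e1.of_dvd ho).symm.trans (h1.mul_right _)).trans (e2.of_dvd ho))
  have h3 := (e1.trans h2).trans e2.symm
  refine Nat.ModEq.cancel_right_of_coprime ?_ h3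
  refine Nat.Coprime.pow_right _ (Nat.Coprime.symm (Nat.coprime_two_left.2 ?_))
  exact Nat.Even.sub_odd Nat.one_le_two_pow ((Nat.even_pow.2 ⟨even_two, hn.ne'⟩)) odd_one

theorem exists_shift {n : ℕ} (hn : 0 < n) (a b c d f : ℕ) :
    ∃ r, ∀ x ∈ [a, b, c, d, f], (x + r) % n + (n - 1) / 5 < n := by
  classical
  set g := (n - 1) / 5 with hg
  let bad : ℕ → Finset ℕ := fun x => (Finset.range n).filter fun r => n ≤ (x + r) % n + g
  have hb : ∀ x, (bad x).card ≤ g := fun x => by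
    have h1 : (bad x).card ≤ (Finset.Ico (n - g) n).card := by
      refine Finset.card_le_card_of_injOn (fun r => (x + r) % n) (fun r hr => ?_) ?_
      · have := (Finset.mem_filter.1 hr).2
        have h2 := Nat.mod_lt (x + r) hn
        simp only [Finset.coe_Ico, Set.mem_Ico]
        omega
      · intro r hr r' hr' e
        have h2 := Finset.mem_range.1 (Finset.mem_filter.1 hr).1
        have h3 := Finset.mem_range.1 (Finset.mem_filter.1 hr').1
        have h4 : r ≡ r' [MOD n] := Nat.ModEq.add_left_cancel' x e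
        exact Nat.ModEq.eq_of_lt_of_lt h4 h2 h3
    rw [Nat.card_Ico] at h1
    omega
  by_contra! h0
  have h1 : Finset.range n ⊆ bad a ∪ bad b ∪ bad c ∪ bad d ∪ bad f := fun r hr => by
    obtain ⟨x, hx, hx'⟩ := h0 r
    simp only [List.mem_cons, List.not_mem_nil, or_false] at hx
    simp only [Finset.mem_union, bad, Finset.mem_filter]
    rcases hx with rfl | rfl | rfl | rfl | rfl <;> tauto
  have h2 := Finset.card_le_card h1
  have h3 := Finset.card_union_le (bad a ∪ bad b ∪ bad c ∪ bad d) (bad f)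
  have h4 := Finset.card_union_le (bad a ∪ bad b ∪ bad c) (bad d)
  have h5 := Finset.card_union_le (bad a ∪ bad b) (bad c)
  have h6 := Finset.card_union_le (bad a) (bad b)
  have := hb a; have := hb b; have := hb c; have := hb d; have := hb f
  rw [Finset.card_range] at h2
  omega

theorem P32.of_small {n o e : ℕ} (hn : 2 ≤ n) (hoe : o * e = 2 ^ n - 1)
    (he : 3 * e < 2 ^ ((n - 1) / 5 + 1)) (a b c d f : ℕ) : P32 n o a b c d f := by
  obtain ⟨r, hr⟩ := exists_shift (by omega : 0 < n) a b c d f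
  refine P32.shift (by omega) ⟨e, hoe.symm⟩ r fun h => ?_
  set g := (n - 1) / 5 with hg
  obtain ⟨m, hm⟩ : ∃ m, n = (m + 1) + (g + 1) := ⟨n - g - 2, by omega⟩
  have hle : ∀ x ∈ [a, b, c, d, f], 2 ^ ((x + r) % n) ≤ 2 ^ (m + 1) := fun x hx =>
    Nat.pow_le_pow_right two_pos (by have := hr x hx; omega)
  have h1 : 3 * 2 ^ (m + 1) < o := by
    by_contra! h2
    have h3 : o * e ≤ 3 * 2 ^ (m + 1) * e := Nat.mul_le_mul_right _ h2
    have h4 : 2 ^ n = 2 ^ (m + 1) * 2 ^ (g + 1) := by rw [← pow_add, ← hm]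
    have h5 : 2 ^ (m + 1) * (3 * e + 1) ≤ 2 ^ (m + 1) * 2 ^ (g + 1) := Nat.mul_le_mul_left _ he
    have h6 : 2 ≤ 2 ^ (m + 1) := by
      calc 2 = 2 ^ 1 := rfl
        _ ≤ _ := Nat.pow_le_pow_right two_pos (by omega)
    have h7 : 3 * 2 ^ (m + 1) * e = 2 ^ (m + 1) * (3 * e) := by ring
    rw [mul_add, mul_one] at h5
    omega
  have := hle a (by simp); have := hle b (by simp); have := hle c (by simp)
  have := hle d (by simp); have := hle f (by simp)
  rw [h.eq_of_lt_of_lt (by omega) (by omega)]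

theorem three_mul_lt {n : ℕ} (hn : 31 ≤ n) : 3 * n < 2 ^ ((n - 1) / 5 + 1) := by
  have key : ∀ g : ℕ, 15 * (g + 6) + 15 < 2 ^ (g + 6 + 1) := fun g => by
    induction g with
    | zero => norm_num
    | succ g ih =>
      rw [show g + 1 + 6 + 1 = (g + 6 + 1) + 1 by ring, pow_succ]
      generalize 2 ^ (g + 6 + 1) = y at ih ⊢
      omega
  have := key ((n - 1) / 5 - 6)
  rw [show (n - 1) / 5 - 6 + 6 = (n - 1) / 5 by omega] at this
  omega

set_option synthInstance.maxSize 2000 in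
set_option synthInstance.maxHeartbeats 400000 in
theorem small_cases : ∀ n < 31, ∀ e < 31, 2 ≤ n → e ∣ n → e ∣ 2 ^ n - 1 →
    e = 1 ∨ 3 * e < 2 ^ ((n - 1) / 5 + 1) ∨ (n = 6 ∧ e = 3) ∨ (n = 12 ∧ e = 3) ∨
      (n = 18 ∧ e = 9) := by decide +kernel

/-- Brute force check with the first exponent equal to zero. -/
def chk (n o : ℕ) : Bool :=
  (List.range n).all fun b => (List.range n).all fun c => (List.range n).all fun d =>
    (List.range n).all fun f =>
      !(Nat.beq ((1 + 2 ^ b + 2 ^ c) % o) ((2 ^ d + 2 ^ f) % o)) ||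
        Nat.beq ((1 + 2 ^ b + 2 ^ c) % (2 ^ n - 1)) ((2 ^ d + 2 ^ f) % (2 ^ n - 1))

theorem P32.of_chk {n o : ℕ} (hn : 0 < n) (ho : o ∣ 2 ^ n - 1) (h : chk n o = true)
    (a b c d f : ℕ) : P32 n o a b c d f := by
  refine P32.shift hn ho (n - a % n) ?_
  have h0 : (a + (n - a % n)) % n = 0 := by
    have := Nat.mod_lt a hn
    rw [← Nat.mod_add_mod, Nat.add_sub_cancel' this.le, Nat.mod_self]
  rw [h0]
  simp only [chk, List.all_eq_true, List.mem_range, Bool.or_eq_true, Bool.not_eq_true',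
    Nat.beq_eq] at h
  intro h1
  rcases h _ (Nat.mod_lt (b + (n - a % n)) hn) _ (Nat.mod_lt (c + (n - a % n)) hn)
    _ (Nat.mod_lt (d + (n - a % n)) hn) _ (Nat.mod_lt (f + (n - a % n)) hn) with h2 | h2
  · rw [pow_zero] at h1
    exact absurd h1 (Nat.ne_of_beq_eq_false h2)
  · exact h2

theorem chk12 : chk 12 1365 = true := by decide +kernel

theorem chk18 : chk 18 29127 = true := by decide +kernel

theorem num32 {n o : ℕ} (hn : 2 ≤ n) (ho : o ∣ 2 ^ n - 1) (ho' : 2 ^ n - 1 ∣ o * n) :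
    (n = 6 ∧ o = 21) ∨ ∀ a b c d f, P32 n o a b c d f := by
  obtain ⟨e, he⟩ := ho
  have hpos : 0 < 2 ^ n - 1 := by
    have : 2 ^ 1 ≤ 2 ^ n := Nat.pow_le_pow_right two_pos (by omega)
    omega
  have ho0 : 0 < o := Nat.pos_of_dvd_of_pos ⟨e, he⟩ hpos
  have hen : e ∣ n := Nat.dvd_of_mul_dvd_mul_left ho0 (he ▸ ho')
  have hle := Nat.le_of_dvd (by omega) hen
  by_cases h31 : 31 ≤ n
  · exact Or.inr (P32.of_small hn he.symm (lt_of_le_of_lt (by omega) (three_mul_lt h31)))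
  rcases small_cases n (by omega) e (by omega) hn hen ⟨o, by rw [he, mul_comm]⟩ with
    rfl | h | ⟨rfl, rfl⟩ | ⟨rfl, rfl⟩ | ⟨rfl, rfl⟩
  · right
    intro a b c d f h
    rwa [he, mul_one]
  · exact Or.inr (P32.of_small hn he.symm h)
  · left; omega
  · have h1 : o = 1365 := Nat.eq_of_mul_eq_mul_right (by norm_num : 0 < 3) (by rw [← he]; norm_num)
    rw [h1]
    exact Or.inr (P32.of_chk (by norm_num) (by norm_num) chk12)
  · have h1 : o = 29127 := Nat.eq_of_mul_eq_mul_right (by norm_num : 0 < 9) (by rw [← he]; norm_num)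
    rw [h1]
    exact Or.inr (P32.of_chk (by norm_num) (by norm_num) chk18)

theorem lt_of_good {n o : ℕ} (hn : 2 ≤ n) (ho : o ∣ 2 ^ n - 1) (ho' : 2 ^ n - 1 ∣ o * n) :
    n < o := by
  by_contra! h
  have hpos : 0 < 2 ^ n - 1 := by
    have : 2 ^ 1 ≤ 2 ^ n := Nat.pow_le_pow_right two_pos (by omega)
    omega
  have ho0 : 0 < o := Nat.pos_of_dvd_of_pos ho hpos
  have h1 : 2 ^ n - 1 ≤ n * n :=
    (Nat.le_of_dvd (Nat.mul_pos ho0 (by omega)) ho').trans (Nat.mul_le_mul_right _ h)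
  have key : ∀ g : ℕ, (g + 5) * (g + 5) + 1 < 2 ^ (g + 5) := fun g => by
    induction g with
    | zero => decide
    | succ g ih =>
      rw [show g + 1 + 5 = (g + 5) + 1 by ring, pow_succ]
      generalize 2 ^ (g + 5) = y at ih ⊢
      nlinarith
  by_cases h5 : 5 ≤ n
  · have := key (n - 5)
    rw [Nat.sub_add_cancel h5] at this
    omega
  · have h3 : n < 5 := by omega
    interval_cases n <;> interval_cases o <;> omega

theorem s21 : ∀ i < 6, ∀ j < 6, ∀ k < 6, (2 ^ i + 2 ^ j) % 21 = 2 ^ k % 21 →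
    (2 ^ i + 2 ^ j) % 63 = 2 ^ k % 63 := by decide +kernel

set_option synthInstance.maxSize 2000 in
set_option synthInstance.maxHeartbeats 400000 in
theorem s22 : ∀ i < 6, ∀ j < 6, ∀ k < 6, ∀ l < 6, Nat.gcd (2 ^ i + 2 ^ j) 21 = 1 →
    (2 ^ i + 2 ^ j) % 21 = (2 ^ k + 2 ^ l) % 21 →
    (2 ^ i + 2 ^ j) % 63 = (2 ^ k + 2 ^ l) % 63 := by decide +kernel

set_option synthInstance.maxSize 4000 in
set_option synthInstance.maxHeartbeats 400000 in
theorem s3 : ∀ i < 6, ∀ j < 6, Nat.gcd (2 ^ i + 2 ^ j) 21 = 1 → ∃ c₀ < 6, ∃ r₀ < 6,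
    (c₀ = 1 ∨ c₀ = 5) ∧ ∀ c < 6, ∀ r < 6,
      ((2 ^ i + 2 ^ j) * 2 ^ c + 2 ^ r) % 21 = (2 ^ i + 2 ^ j) % 21 → c = c₀ ∧ r = r₀ := by
  decide +kernel

end Cfsg.Lib.Shaw
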