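import Cfsg.Agent.Chev.SuzTwoField
import Cfsg.Agent.Shaw.Num

/-!
Elements of large multiplicative order in a finite field of characteristic two, and equivariant
biadditive maps.
-/

set_option autoImplicit false

namespace Cfsg.Lib.Shaw

open Cfsg.Lib.Chev.FieldAut

variable {F : Type*} [Field F]

/-- `a` generates a subgroup of the multiplicative group whose index divides the degree. -/
def Good (a : F) : Prop :=
  a ≠ 0 ∧ ∀ k : ℕ, a ^ k = 1 → Nat.card F - 1 ∣ k * Nat.log 2 (Nat.card F)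

/-- The exceptional case: an element of order `21` in the field with `64` elements. -/
def Sp (a : F) : Prop := Nat.card F = 2 ^ 6 ∧ ∀ s t : ℕ, a ^ s = a ^ t ↔ s ≡ t [MOD 21]

/-- Monomial identities of type three against two extend from `a` to the field. -/
def Ext (a : F) : Prop := ∀ κ₁ κ₂ κ₃ σ τ : F ≃+* F, κ₁ a * κ₂ a * κ₃ a = σ a * τ a →
  ∀ x, κ₁ x * κ₂ x * κ₃ x = σ x * τ x

variable [Finite F] [CharP F 2]

theorem exists_card (h2 : ∃ c : F, c ≠ 0 ∧ c ≠ 1) : ∃ n, 2 ≤ n ∧ Nat.card F = 2 ^ n := by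
  classical
  have := Fintype.ofFinite F
  obtain ⟨n, -, hn⟩ := FiniteField.card F 2
  rw [← Nat.card_eq_fintype_card] at hn
  refine ⟨n, ?_, hn⟩
  obtain ⟨c, hc0, hc1⟩ := h2
  have h1 : ({0, 1, c} : Finset F).card ≤ Nat.card F := by
    rw [Nat.card_eq_fintype_card]; exact Finset.card_le_univ _
  rw [Finset.card_eq_three.2 ⟨0, 1, c, zero_ne_one, hc0.symm, hc1.symm, rfl⟩, hn] at h1
  by_contra h
  have : (n : ℕ) = 1 := by have : 0 < (n : ℕ) := n.pos; omega
  rw [this] at h1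
  omega

omit [CharP F 2] in
theorem pow_card_sub_one {a : F} (ha : a ≠ 0) : a ^ (Nat.card F - 1) = 1 := by
  have := Fintype.ofFinite F
  rw [Nat.card_eq_fintype_card]
  exact FiniteField.pow_card_sub_one_eq_one a ha

omit [CharP F 2] in
theorem pow_eq_of_modEq {s t : ℕ} (hs : 0 < s) (ht : 0 < t) (h : s ≡ t [MOD Nat.card F - 1])
    (x : F) : x ^ s = x ^ t := by
  by_cases hx : x = 0
  · rw [hx, zero_pow hs.ne', zero_pow ht.ne']
  · rw [pow_eq_pow_mod s (pow_card_sub_one hx), pow_eq_pow_mod t (pow_card_sub_one hx), h]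

theorem Good.num (h2 : ∃ c : F, c ≠ 0 ∧ c ≠ 1) {a : F} (ha : Good a) :
    ∃ n o, 2 ≤ n ∧ Nat.card F = 2 ^ n ∧ o ∣ 2 ^ n - 1 ∧ 2 ^ n - 1 ∣ o * n ∧
      ∀ s t : ℕ, a ^ s = a ^ t ↔ s ≡ t [MOD o] := by
  obtain ⟨n, hn, hc⟩ := exists_card h2
  let u : Fˣ := Units.mk0 a ha.1
  have hu : ∀ s : ℕ, ((u ^ s : Fˣ) : F) = a ^ s := fun s => by simp [u]
  refine ⟨n, orderOf u, hn, hc, ?_, ?_, fun s t => ?_⟩
  · rw [← hc, ← Nat.card_units]; exact orderOf_dvd_natCard u
  · have := ha.2 (orderOf u) (by rw [← hu, pow_orderOf_eq_one, Units.val_one])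
    rwa [hc, Nat.log_pow one_lt_two] at this
  · rw [← pow_eq_pow_iff_modEq, ← hu, ← hu, Units.val_inj]

theorem Good.dich (h2 : ∃ c : F, c ≠ 0 ∧ c ≠ 1) {a : F} (ha : Good a) : Sp a ∨ Ext a := by
  obtain ⟨n, o, hn, hc, h1, h3, h4⟩ := ha.num h2
  rcases num32 hn h1 h3 with ⟨rfl, rfl⟩ | h
  · exact Or.inl ⟨hc, h4⟩
  · right
    intro κ₁ κ₂ κ₃ σ τ e x
    obtain ⟨i₁, -, rfl⟩ := exists_aut_eq_pow κ₁
    obtain ⟨i₂, -, rfl⟩ := exists_aut_eq_pow κ₂
    obtain ⟨i₃, -, rfl⟩ := exists_aut_eq_pow κ₃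
    obtain ⟨j₁, -, rfl⟩ := exists_aut_eq_pow σ
    obtain ⟨j₂, -, rfl⟩ := exists_aut_eq_pow τ
    simp only [Fr_pow_apply, ← pow_add] at e ⊢
    exact pow_eq_of_modEq (by positivity) (by positivity) (hc ▸ h _ _ _ _ _ ((h4 _ _).1 e)) x

theorem half_sq (σ : F ≃+* F) (x : F) : ((Fr F)⁻¹ * σ) x * ((Fr F)⁻¹ * σ) x = σ x := by
  rw [← Fr_mul_apply, mul_inv_cancel_left]

theorem Sp.exists_lt {a : F} (ha : Sp a) (σ : F ≃+* F) : ∃ i < 6, σ = Fr F ^ i := by
  obtain ⟨i, hi, rfl⟩ := exists_aut_eq_pow σ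
  rw [ha.1] at hi
  exact ⟨i, (Nat.pow_le_pow_iff_right one_lt_two).1 hi, rfl⟩

theorem Good.ext₂ (h2 : ∃ c : F, c ≠ 0 ∧ c ≠ 1) {a : F} (ha : Good a) {σ τ ρ : F ≃+* F}
    (h : σ a * τ a = ρ a) (x : F) : σ x * τ x = ρ x := by
  rcases ha.dich h2 with hs | he
  · obtain ⟨i, hi, rfl⟩ := hs.exists_lt σ
    obtain ⟨j, hj, rfl⟩ := hs.exists_lt τ
    obtain ⟨k, hk, rfl⟩ := hs.exists_lt ρ
    simp only [Fr_pow_apply, ← pow_add] at h ⊢
    refine pow_eq_of_modEq (by positivity) (by positivity) ?_ x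
    rw [hs.1]
    exact s21 i hi j hj k hk ((hs.2 _ _).1 h)
  · have := he ((Fr F)⁻¹ * σ) ((Fr F)⁻¹ * σ) τ ((Fr F)⁻¹ * ρ) ((Fr F)⁻¹ * ρ)
      (by rw [half_sq, half_sq, h]) x
    rwa [half_sq, half_sq] at this

theorem Good.ext₁ (h2 : ∃ c : F, c ≠ 0 ∧ c ≠ 1) {a : F} (ha : Good a) {σ ρ : F ≃+* F}
    (h : σ a = ρ a) : σ = ρ := RingEquiv.ext fun x => by
  have := ha.ext₂ h2 (σ := (Fr F)⁻¹ * σ) (τ := (Fr F)⁻¹ * σ) (ρ := ρ) (by rw [half_sq, h]) x
  rwa [half_sq] at this

omit [Finite F] [CharP F 2] in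
theorem Sp.gcd {a : F} (ha : Sp a) {s : ℕ} (hl : Good (a ^ s)) : Nat.gcd s 21 = 1 := by
  have key : ∀ p k : ℕ, p * k = 21 → p ∣ s → 63 ∣ k * 6 := by
    rintro p k hp ⟨t, rfl⟩
    have := hl.2 k (by
      rw [← pow_mul, ← pow_zero a, ha.2, show p * t * k = p * k * t by ring, hp]
      exact (Nat.modEq_zero_iff_dvd).2 (dvd_mul_right _ _))
    rwa [ha.1, Nat.log_pow one_lt_two] at this
  refine Nat.Coprime.mul_right (m := 3) (n := 7) ?_ ?_
  · exact ((Nat.Prime.coprime_iff_not_dvd Nat.prime_three).2 fun h =>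
      absurd (key 3 7 rfl h) (by norm_num)).symm
  · exact ((Nat.Prime.coprime_iff_not_dvd (by norm_num : Nat.Prime 7)).2 fun h =>
      absurd (key 7 3 rfl h) (by norm_num)).symm

/-- The cubic identity has at most one solution, and its first member fixes only the prime field. -/
theorem cubic_good (h2 : ∃ c : F, c ≠ 0 ∧ c ≠ 1) {a : F} (ha : Good a) {σ τ : F ≃+* F}
    (hl : Good (σ a * τ a)) {κ ρ : F ≃+* F} (h : κ (σ a * τ a) * ρ a = σ a * τ a) :
    (∀ n, κ n = n → n * n = n) ∧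
      ∀ κ' ρ' : F ≃+* F, κ' (σ a * τ a) * ρ' a = σ a * τ a → κ' = κ ∧ ρ' = ρ := by
  rcases ha.dich h2 with hs | he
  · obtain ⟨i, hi, rfl⟩ := hs.exists_lt σ
    obtain ⟨j, hj, rfl⟩ := hs.exists_lt τ
    simp only [Fr_pow_apply, ← pow_add] at h hl ⊢
    obtain ⟨c₀, -, r₀, -, h0, h1⟩ := s3 i hi j hj (hs.gcd hl)
    have key : ∀ κ ρ : F ≃+* F, κ (a ^ (2 ^ i + 2 ^ j)) * ρ a = a ^ (2 ^ i + 2 ^ j) →
        κ = Fr F ^ c₀ ∧ ρ = Fr F ^ r₀ := fun κ ρ e => by
      obtain ⟨c, hc, rfl⟩ := hs.exists_lt κ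
      obtain ⟨r, hr, rfl⟩ := hs.exists_lt ρ
      simp only [Fr_pow_apply, ← pow_add, ← pow_mul] at e
      obtain ⟨rfl, rfl⟩ := h1 c hc r hr ((hs.2 _ _).1 e)
      exact ⟨rfl, rfl⟩
    obtain ⟨e1, e2⟩ := key κ ρ h
    refine ⟨fun n hn => ?_, fun κ' ρ' h' => ?_⟩
    · rw [e1, Fr_pow_apply] at hn
      rcases h0 with rfl | rfl
      · rwa [pow_one, pow_two] at hn
      · have h3 : n ^ 64 = n ^ 1 :=
          pow_eq_of_modEq (by norm_num) (by norm_num) (by rw [hs.1]; decide) n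
        rw [← hn, ← pow_add, hn]
        simpa using h3
    · obtain ⟨e3, e4⟩ := key κ' ρ' h'
      exact ⟨e3.trans e1.symm, e4.trans e2.symm⟩
  · have ext : ∀ κ ρ : F ≃+* F, κ (σ a * τ a) * ρ a = σ a * τ a →
        ∀ x, κ (σ x * τ x) * ρ x = σ x * τ x := fun κ ρ e x => by
      have := he (κ * σ) (κ * τ) ρ σ τ (by
        rw [RingAut.mul_apply, RingAut.mul_apply, ← map_mul, e]) x
      rwa [RingAut.mul_apply, RingAut.mul_apply, ← map_mul] at this
    by_cases hne : σ = τ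
    · subst hne
      have hdiag : ∀ κ ρ : F ≃+* F, κ (σ a * σ a) * ρ a = σ a * σ a → Fr F * κ = 1 ∧ ρ = σ := by
        intro κ ρ e
        have h3 := ext κ ρ e
        obtain ⟨e1, e2⟩ := eq_of_mul_eq_single (σ := Fr F * (κ * σ)) (τ := ρ) (ρ := Fr F * σ)
          fun x => by rw [Fr_mul_apply, Fr_mul_apply, ← h3 x, map_mul]; rfl
        have e3 : ρ = σ := by rw [e1] at e2; exact mul_left_cancel e2
        refine ⟨?_, e3⟩
        rw [e3, ← mul_assoc] at e1
        exact mul_right_cancel (e1.trans (one_mul σ).symm)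
      obtain ⟨e1, e2⟩ := hdiag κ ρ h
      refine ⟨fun n hn => ?_, fun κ' ρ' h' => ?_⟩
      · have := DFunLike.congr_fun e1 n
        rwa [Fr_mul_apply, hn] at this
      · obtain ⟨e3, e4⟩ := hdiag κ' ρ' h'
        exact ⟨mul_left_cancel (e3.trans e1.symm), e4.trans e2.symm⟩
    · refine ⟨fun n hn => ?_, fun κ' ρ' h' => cubic_unique h2 hne (ext _ _ h') (ext _ _ h)⟩
      have := DFunLike.congr_fun (cubic_cases h2 hne (ext _ _ h)).1 n
      rwa [RingAut.mul_apply, hn, Fr_mul_apply, hn] at this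

/-- Multiplication by a good element is irreducible. -/
theorem Good.irr (h2 : ∃ c : F, c ≠ 0 ∧ c ≠ 1) {a : F} (ha : Good a) (W : AddSubgroup F)
    (hW : ∀ x ∈ W, a * x ∈ W) {x : F} (hx : x ∈ W) (hx0 : x ≠ 0) (y : F) : y ∈ W := by
  have hpow : ∀ c : F, (∀ x ∈ W, c * x ∈ W) → ∀ k : ℕ, ∀ x ∈ W, c ^ k * x ∈ W := fun c hc k => by
    induction k with
    | zero => simp
    | succ k ih => exact fun x hx => by rw [pow_succ', mul_assoc]; exact hc _ (ih x hx)
  let K : Subfield F :=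
    { carrier := {c | ∀ x ∈ W, c * x ∈ W}
      mul_mem' := fun {c d} hc hd x hx => by rw [mul_assoc]; exact hc _ (hd x hx)
      one_mem' := fun x hx => by rwa [one_mul]
      add_mem' := fun {c d} hc hd x hx => by rw [add_mul]; exact W.add_mem (hc x hx) (hd x hx)
      zero_mem' := fun x _ => by rw [zero_mul]; exact W.zero_mem
      neg_mem' := fun {c} hc x hx => by rw [neg_mul]; exact W.neg_mem (hc x hx)
      inv_mem' := fun c hc => by
        by_cases h0 : c = 0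
        · intro x _; rw [h0, inv_zero, zero_mul]; exact W.zero_mem
        · have h1 : 1 < Nat.card F := Finite.one_lt_card
          have h3 : c⁻¹ = c ^ (Nat.card F - 2) := by
            refine inv_eq_of_mul_eq_one_right ?_
            rw [← pow_succ', show Nat.card F - 2 + 1 = Nat.card F - 1 by omega, pow_card_sub_one h0]
          rw [h3]; exact hpow c hc _ }
  have := Fintype.ofFinite K
  have hch : CharP K 2 := (algebraMap K F).charP (algebraMap K F).injective 2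
  obtain ⟨d, -, hd⟩ := FiniteField.card K 2
  have h1 : a ^ 2 ^ (d : ℕ) = a := by
    have := FiniteField.pow_card (⟨a, hW⟩ : K)
    rw [hd] at this
    exact congrArg Subtype.val this
  have h3 : Fr F ^ (d : ℕ) = 1 := ha.ext₁ h2 (by rw [Fr_pow_apply, h1]; rfl)
  have h4 : Nat.card F ≤ Nat.card K := by
    by_contra! hlt
    rw [Nat.card_eq_fintype_card, hd] at hlt
    have := pow_inj_of_lt hlt (Finite.one_lt_card (α := F)) fun x => by
      rw [← Fr_pow_apply, h3, pow_one]; rfl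
    have h5 : 2 ^ 1 ≤ 2 ^ (d : ℕ) := Nat.pow_le_pow_right two_pos d.2
    omega
  have h5 : Function.Surjective (Subtype.val : K → F) :=
    ((Nat.bijective_iff_injective_and_card _).2 ⟨Subtype.val_injective,
      le_antisymm (Nat.card_le_card_of_injective _ Subtype.val_injective) h4⟩).2
  obtain ⟨c, hc⟩ := h5 (y / x)
  have := c.2 x hx
  rwa [hc, div_mul_cancel₀ _ hx0] at this

/-- There is no non-zero alternating biadditive map `B` with `B (a x) (a y) = a B x y`. -/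
theorem alt_eq_zero (h2 : ∃ c : F, c ≠ 0 ∧ c ≠ 1) {a : F} (ha : Good a) (B : F →+ F →+ F)
    (halt : ∀ x, B x x = 0) (h : ∀ x y, B (a * x) (a * y) = a * B x y) (x y : F) : B x y = 0 := by
  have := finite_aut (F := F)
  have := Fintype.ofFinite (F ≃+* F)
  obtain ⟨c, hc, hc'⟩ := exists_sum_aut₂_equiv B h
  have h1 : ∀ p, p ≠ ((Fr F)⁻¹, (Fr F)⁻¹) → c p = 0 := by
    intro p hp
    by_contra hp'
    obtain ⟨h2, h3⟩ := eq_of_mul_eq_single (ha.ext₂ h2 (ρ := 1) (hc' p hp'))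
    have h4 := eq_inv_of_mul_eq_one_right h3
    exact hp (Prod.ext h4 (h2 ▸ h4))
  have h5 : ∀ x y, B x y = c ((Fr F)⁻¹, (Fr F)⁻¹) * ((Fr F)⁻¹ x * (Fr F)⁻¹ y) := by
    intro x y
    rw [hc, Finset.sum_eq_single ((Fr F)⁻¹, (Fr F)⁻¹)]
    · intro p _ hp; rw [h1 p hp, zero_mul]
    · intro h; exact absurd (Finset.mem_univ _) h
  have h6 := halt 1
  rw [h5, map_one, mul_one, mul_one] at h6
  rw [h5, h6, zero_mul]

/-- An equivariant biadditive map for the cubic identity is a monomial. -/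
theorem cubic_mono (h2 : ∃ c : F, c ≠ 0 ∧ c ≠ 1) {a : F} (ha : Good a) {σ τ : F ≃+* F}
    (hl : Good (σ a * τ a)) (B : F →+ F →+ F)
    (h : ∀ x y, B (σ a * τ a * x) (a * y) = σ a * τ a * B x y) :
    ∃ (d : F) (κ ρ : F ≃+* F), (∀ x y, B x y = d * (κ x * ρ y)) ∧
      (d ≠ 0 → ∀ n, κ n = n → n * n = n) := by
  have := finite_aut (F := F)
  have := Fintype.ofFinite (F ≃+* F)
  obtain ⟨d, hd, hd'⟩ := exists_sum_aut₂_equiv B h
  by_cases h0 : ∀ p, d p = 0
  · refine ⟨0, 1, 1, fun x y => ?_, fun h => absurd rfl h⟩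
    rw [hd, zero_mul]; exact Finset.sum_eq_zero fun p _ => by rw [h0, zero_mul]
  push Not at h0
  obtain ⟨p, hp⟩ := h0
  obtain ⟨h3, h4⟩ := cubic_good h2 ha hl (hd' p hp)
  refine ⟨d p, p.1, p.2, fun x y => ?_, fun _ => h3⟩
  rw [hd, Finset.sum_eq_single p (fun p' _ hp' => ?_) (fun h => absurd (Finset.mem_univ _) h)]
  by_contra hp''
  obtain ⟨e1, e2⟩ := h4 _ _ (hd' p' (left_ne_zero_of_mul hp''))
  exact hp' (Prod.ext e1 e2)

theorem cubic_eq_zero (h2 : ∃ c : F, c ≠ 0 ∧ c ≠ 1) {a : F} (ha : Good a) {σ τ : F ≃+* F}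
    (hl : Good (σ a * τ a)) (B : F →+ F →+ F)
    (h : ∀ x y, B (σ a * τ a * x) (a * y) = σ a * τ a * B x y) {c c' : F} (hc0 : c ≠ 0)
    (hc0' : c' ≠ 0) (hc1 : B c c' = 0) (x y : F) : B x y = 0 := by
  obtain ⟨d, κ, ρ, hB, -⟩ := cubic_mono h2 ha hl B h
  rw [hB] at hc1
  have : d = 0 := by simpa [hc0, hc0'] using hc1
  rw [hB, this, zero_mul]

theorem beta_mono (h2 : ∃ c : F, c ≠ 0 ∧ c ≠ 1) {a : F} (ha : Good a) {σ τ : F ≃+* F}
    (hl : Good (σ a * τ a)) (B : F →+ F →+ F)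
    (h : ∀ x y, B (σ a * τ a * x) (a * y) = σ a * τ a * B x y) :
    (∀ n n' x, n ≠ 0 → n' ≠ 0 → B n x = n → B n' x = n' → n = n') ∧
      ∀ n x x', n ≠ 0 → B n x ≠ 0 → B n x' = 0 → x' = 0 := by
  obtain ⟨d, κ, ρ, hB, hfix⟩ := cubic_mono h2 ha hl B h
  refine ⟨fun n n' x hn hn' h3 h4 => ?_, fun n x x' hn h3 h4 => ?_⟩
  · rw [hB] at h3 h4
    have hd : d ≠ 0 := left_ne_zero_of_mul (h3 ▸ hn)
    have h5 : κ (n / n') = n / n' := by
      rw [map_div₀, div_eq_div_iff (by simpa using hn') hn']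
      linear_combination (κ n') * h3 - (κ n) * h4
    have h6 := hfix hd _ h5
    exact (div_eq_one_iff_eq hn').1 (mul_left_cancel₀ (div_ne_zero hn hn') (h6.trans (mul_one _).symm))
  · rw [hB] at h3 h4
    simpa [left_ne_zero_of_mul h3, hn] using h4

/-- An equivariant additive family of idempotents vanishes. -/
theorem idem_eq_zero (h2 : ∃ c : F, c ≠ 0 ∧ c ≠ 1) {a l : F} (ha : Good a) (hl : Good l)
    (E : F →+ F →+ F) (h : ∀ u x, E (a * u) (l * x) = l * E u x)
    (hE : ∀ u x, E u (E u x) = E u x) (u x : F) : E u x = 0 := by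
  classical
  have hcomm : ∀ u v x, E u (E v x) = E v (E u x) := by
    intro u v x
    have h1 := hE (u + v) x
    simp only [map_add, AddMonoidHom.add_apply, hE] at h1
    have h3 : E v (E u x) + E u (E v x) = 0 := by linear_combination h1
    rw [eq_neg_of_add_eq_zero_right h3, CharTwo.neg_eq]
  have hex : ∀ T : Finset F, ∃ y : F, y ≠ 0 ∧ ∀ v ∈ T, E v y = 0 ∨ E v y = y := by
    intro T
    induction T using Finset.induction_on with
    | empty => exact ⟨1, one_ne_zero, by simp⟩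
    | insert w T _ ih =>
      obtain ⟨y, hy0, hy⟩ := ih
      by_cases hw : E w y = 0
      · refine ⟨y, hy0, fun v hv => ?_⟩
        rcases Finset.mem_insert.1 hv with rfl | hv
        · exact Or.inl hw
        · exact hy v hv
      · refine ⟨E w y, hw, fun v hv => ?_⟩
        rcases Finset.mem_insert.1 hv with rfl | hv
        · exact Or.inr (hE _ _)
        · rw [hcomm]
          rcases hy v hv with h3 | h3 <;> rw [h3]
          · exact Or.inl (map_zero _)
          · exact Or.inr rfl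
  have := Fintype.ofFinite F
  obtain ⟨y, hy0, hy⟩ := hex Finset.univ
  have hk : ∀ (k : ℕ) (v : F), E v (l ^ k * y) = l ^ k * E ((a ^ k)⁻¹ * v) y := fun k v => by
    have h1 := equiv_pow₂ (S := fun u x => E u x) h k ((a ^ k)⁻¹ * v) y
    rwa [mul_inv_cancel_left₀ (pow_ne_zero k ha.1)] at h1
  by_cases h0 : ∀ v, E v y = 0
  · let W : AddSubgroup F :=
      { carrier := {z | ∀ v, E v z = 0}
        add_mem' := fun {z z'} hz hz' v => by rw [map_add, hz v, hz' v, add_zero]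
        zero_mem' := fun v => map_zero _
        neg_mem' := fun {z} hz v => by rw [map_neg, hz v, neg_zero] }
    refine hl.irr h2 W (fun z hz v => ?_) (x := y) h0 hy0 x u
    have := h (a⁻¹ * v) z
    rw [mul_inv_cancel_left₀ ha.1, hz, mul_zero] at this
    exact this
  exfalso
  push Not at h0
  obtain ⟨v₀, hv₀⟩ := h0
  obtain ⟨n, o, hn, hc, h1, h3, h4⟩ := ha.num h2
  have hno := lt_of_good hn h1 h3
  -- no non-trivial relation between the vectors `l ^ k * y`, `k ≤ n`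
  have key : ∀ (m : ℕ) (S : Finset ℕ), S.card = m → S ⊆ Finset.range (n + 1) →
      ∑ k ∈ S, l ^ k * y = 0 → S = ∅ := by
    intro m
    induction m using Nat.strong_induction_on with
    | _ m ih =>
      intro S hS hsub hsum
      by_contra hne
      obtain ⟨j, hj⟩ := Finset.nonempty_iff_ne_empty.2 hne
      have hT : ∀ v, (∀ k ∈ S, E ((a ^ k)⁻¹ * v) y = 0) ∨ ∀ k ∈ S, E ((a ^ k)⁻¹ * v) y ≠ 0 := by
        intro v
        let T := S.filter fun k => E ((a ^ k)⁻¹ * v) y ≠ 0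
        have h5 : ∑ k ∈ T, l ^ k * y = 0 := by
          have h6 := congrArg (E v) hsum
          rw [map_sum, map_zero] at h6
          rw [← h6, Finset.sum_filter]
          refine Finset.sum_congr rfl fun k _ => ?_
          rw [hk]
          split_ifs with h7
          · rw [(hy _ (Finset.mem_univ _)).resolve_left h7]
          · rw [not_not.1 h7, mul_zero]
        by_cases hTS : T = S
        · exact Or.inr fun k hk => (Finset.mem_filter.1 (hTS ▸ hk : k ∈ T)).2
        · have h6 := ih _ (hS ▸ Finset.card_lt_card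
            ((Finset.filter_subset _ _).ssubset_of_ne hTS)) T rfl
            ((Finset.filter_subset _ _).trans hsub) h5
          refine Or.inl fun k hk => by_contra fun h7 => ?_
          have : k ∈ T := Finset.mem_filter.2 ⟨hk, h7⟩
          rw [h6] at this
          exact absurd this (Finset.notMem_empty _)
      have hS1 : S = {j} := by
        refine Finset.eq_singleton_iff_unique_mem.2 ⟨hj, fun k hk => by_contra fun hkj => ?_⟩
        have h5 : (a ^ k)⁻¹ + (a ^ j)⁻¹ ≠ 0 := fun e => by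
          rw [CharTwo.add_eq_zero, inv_inj, h4] at e
          have h6 := Finset.mem_range.1 (hsub hk)
          have h7 := Finset.mem_range.1 (hsub hj)
          exact hkj (e.eq_of_lt_of_lt (by omega) (by omega))
        apply hv₀
        rw [← mul_div_cancel₀ v₀ h5, add_mul, map_add, AddMonoidHom.add_apply]
        rcases hT (v₀ / ((a ^ k)⁻¹ + (a ^ j)⁻¹)) with h6 | h6
        · rw [h6 k hk, h6 j hj, add_zero]
        · rw [(hy _ (Finset.mem_univ _)).resolve_left (h6 k hk),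
            (hy _ (Finset.mem_univ _)).resolve_left (h6 j hj), CharTwo.add_self_eq_zero]
      rw [hS1, Finset.sum_singleton] at hsum
      exact mul_ne_zero (pow_ne_zero j hl.1) hy0 hsum
  have hinj : Set.InjOn (fun S : Finset ℕ => ∑ k ∈ S, l ^ k * y)
      (Finset.range (n + 1)).powerset := by
    intro S hS S' hS' e
    have hS1 := Finset.mem_powerset.1 hS
    have hS2 := Finset.mem_powerset.1 hS'
    have h5 := key _ (S \ S' ∪ S' \ S) rfl
      (Finset.union_subset (Finset.sdiff_subset.trans hS1) (Finset.sdiff_subset.trans hS2)) (by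
        rw [Finset.sum_union disjoint_sdiff_sdiff, CharTwo.add_eq_zero]
        have e1 := Finset.sum_sdiff_sub_sum_sdiff (s₁ := S') (s₂ := S) (f := fun k => l ^ k * y)
        simp only at e
        rw [e, sub_self, sub_eq_zero] at e1
        exact e1)
    rw [Finset.union_eq_empty, Finset.sdiff_eq_empty_iff_subset,
      Finset.sdiff_eq_empty_iff_subset] at h5
    exact Finset.Subset.antisymm h5.1 h5.2
  have h5 := Finset.card_le_card_of_injOn (t := Finset.univ) _ (fun _ _ => Finset.mem_univ _) hinj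
  rw [Finset.card_powerset, Finset.card_range, Finset.card_univ, ← Nat.card_eq_fintype_card, hc,
    pow_succ] at h5
  have : 0 < 2 ^ n := by positivity
  omega

/-- The eigenvalue of a non-zero equivariant quadratic map. -/
theorem quad_eq {a l : F} (S : F → F) (B : F →+ F →+ F)
    (hS : ∀ x y, S (x + y) = S x + S y + B x y) (h : ∀ x, S (a * x) = l * S x)
    (hne : ∃ x, S x ≠ 0) : ∃ σ τ : F ≃+* F, l = σ a * τ a := by
  have := finite_aut (F := F)
  have := Fintype.ofFinite (F ≃+* F)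
  by_cases hB : ∀ x y, B x y = 0
  · obtain ⟨c, hc, hc'⟩ := exists_sum_aut_equiv (AddMonoidHom.mk' S fun x y => by
      rw [hS, hB, add_zero]) h
    obtain ⟨x, hx⟩ := hne
    obtain ⟨σ, -, hσ⟩ := Finset.exists_ne_zero_of_sum_ne_zero (fun e => hx ((hc x).trans e))
    refine ⟨(Fr F)⁻¹ * σ, (Fr F)⁻¹ * σ, ?_⟩
    rw [half_sq, hc' σ (left_ne_zero_of_mul hσ)]
  · push Not at hB
    obtain ⟨x, y, hxy⟩ := hB
    obtain ⟨c, hc, hc'⟩ := exists_sum_aut₂_equiv B (a := a) (b := a) (l := l) fun x y => by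
      have h1 := hS (a * x) (a * y)
      rw [← mul_add, h, h, h, hS] at h1
      linear_combination -h1
    obtain ⟨p, -, hp⟩ := Finset.exists_ne_zero_of_sum_ne_zero (hc x y ▸ hxy)
    exact ⟨p.1, p.2, (hc' p (left_ne_zero_of_mul hp)).symm⟩

end Cfsg.Lib.Shaw
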