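import Cfsg.Agent.Suz.Sec
import Cfsg.Agent.Shaw.Fld

/-!
Suzuki 2-groups with a solvable transitive automorphism group, I: field coordinates on invariant sections.
-/

set_option autoImplicit false

namespace Cfsg.Lib.Shaw

open Cfsg.Lib.Suz

universe u

variable {G : Type u} [Group G] {ξ : MulAut G} {P Z M N R : Subgroup G} {F : Type*} [Field F]

/-- `P` is a `2`-group with central involutions forming (with `1`) the group `Z`, on which the
automorphism `ξ` acts irreducibly with large order. -/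
structure H0 (ξ : MulAut G) (P Z : Subgroup G) : Prop where
  two : IsPGroup 2 P
  inv : ∀ x ∈ P, ξ x ∈ P
  mem_Z : ∀ x, x ∈ Z ↔ x ∈ P ∧ x * x = 1
  central : ∀ z ∈ Z, ∀ x ∈ P, z * x = x * z
  irr : ∀ L : Subgroup G, (∀ x ∈ L, x ∈ Z → ξ x ∈ L) → ∀ x ∈ L, x ∈ Z → x ≠ 1 → Z ≤ L
  free : ∀ k : ℕ, ∀ x ∈ P, x ≠ 1 → (ξ ^ k) x = x → Nat.card Z - 1 ∣ k * Nat.log 2 (Nat.card Z)
  big : 2 < Nat.card Z

/-- As `H0`, and the order of `ξ` divides `|Z| - 1`. -/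
structure HS (ξ : MulAut G) (P Z : Subgroup G) : Prop extends H0 ξ P Z where
  per : ∀ x ∈ P, (ξ ^ (Nat.card Z - 1)) x = x

/-- A good element together with the consequences that are used for coordinates. -/
structure Gd (a : F) : Prop where
  good : Good a
  big : ∃ c : F, c ≠ 0 ∧ c ≠ 1
  irr : ∀ W : AddSubgroup F, (∀ x ∈ W, a * x ∈ W) → ∀ x ∈ W, x ≠ 0 → ∀ y, y ∈ W

theorem Gd.ne {a : F} (h : Gd a) : a ≠ 0 := h.good.1

theorem Good.gd [Finite F] [CharP F 2] {a : F} (h : Good a) (h2 : ∃ c : F, c ≠ 0 ∧ c ≠ 1) :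
    Gd a := ⟨h, h2, fun W hW _ hx hx0 y => h.irr h2 W hW hx hx0 y⟩

/-- A coordinate `M / N ≃ F` under which `ξ` acts as multiplication by a good element. -/
structure Co (ξ : MulAut G) (M N : Subgroup G) (F : Type*) [Field F] where
  f : G → F
  a : F
  prim : Gd a
  le : N ≤ M
  inv : ∀ x ∈ M, ξ x ∈ M
  add : ∀ x ∈ M, ∀ y ∈ M, f (x * y) = f x + f y
  equi : ∀ x ∈ M, f (ξ x) = a * f x
  surj : ∀ c, ∃ x ∈ M, f x = c
  ker : ∀ x ∈ M, f x = 0 ↔ x ∈ N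

theorem pow_inv_mem (h : ∀ x ∈ M, ξ x ∈ M) (k : ℕ) {x : G} (hx : x ∈ M) : (ξ ^ k) x ∈ M := by
  induction k with
  | zero => exact hx
  | succ k ih => rw [pow_succ', MulAut.mul_apply]; exact h _ ih

section AddOn
variable {A : Type*} [AddCommGroup A] {g : G → A}

theorem addOn_one (h : ∀ x ∈ M, ∀ y ∈ M, g (x * y) = g x + g y) : g 1 = 0 := by
  have := h 1 M.one_mem 1 M.one_mem
  rw [mul_one] at this
  exact left_eq_add.1 this

theorem addOn_inv (h : ∀ x ∈ M, ∀ y ∈ M, g (x * y) = g x + g y) {x : G} (hx : x ∈ M) :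
    g x⁻¹ = -g x := by
  rw [eq_neg_iff_add_eq_zero, ← h _ (M.inv_mem hx) _ hx, inv_mul_cancel, addOn_one h]

/-- The kernel of a map that is additive on `M`. -/
def kerOn (h : ∀ x ∈ M, ∀ y ∈ M, g (x * y) = g x + g y) : Subgroup G where
  carrier := {x | x ∈ M ∧ g x = 0}
  one_mem' := ⟨M.one_mem, addOn_one h⟩
  mul_mem' := fun hx hy => ⟨M.mul_mem hx.1 hy.1, by rw [h _ hx.1 _ hy.1, hx.2, hy.2, add_zero]⟩
  inv_mem' := fun hx => ⟨M.inv_mem hx.1, by rw [addOn_inv h hx.1, hx.2, neg_zero]⟩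

theorem mem_kerOn (h : ∀ x ∈ M, ∀ y ∈ M, g (x * y) = g x + g y) {x : G} :
    x ∈ kerOn h ↔ x ∈ M ∧ g x = 0 := Iff.rfl

/-- The image of `L ⊓ M` under a map that is additive on `M`. -/
def imOn {L : Subgroup G} (h : ∀ x ∈ M, ∀ y ∈ M, g (x * y) = g x + g y) : AddSubgroup A where
  carrier := {b | ∃ x ∈ L, x ∈ M ∧ g x = b}
  zero_mem' := ⟨1, L.one_mem, M.one_mem, addOn_one h⟩
  add_mem' := by
    rintro _ _ ⟨x, hx, hx', rfl⟩ ⟨y, hy, hy', rfl⟩
    exact ⟨x * y, L.mul_mem hx hy, M.mul_mem hx' hy', h x hx' y hy'⟩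
  neg_mem' := by
    rintro _ ⟨x, hx, hx', rfl⟩
    exact ⟨x⁻¹, L.inv_mem hx, M.inv_mem hx', addOn_inv h hx'⟩

end AddOn

namespace Co

variable (c : Co ξ M N F)

theorem f_of_mem {x : G} (hx : x ∈ N) : c.f x = 0 := (c.ker x (c.le hx)).2 hx

theorem f_one : c.f 1 = 0 := addOn_one c.add

theorem f_pow_apply (k : ℕ) {x : G} (hx : x ∈ M) : c.f ((ξ ^ k) x) = c.a ^ k * c.f x := by
  induction k with
  | zero => simp
  | succ k ih =>
    rw [pow_succ', MulAut.mul_apply, c.equi _ (pow_inv_mem c.inv k hx), ih, pow_succ', mul_assoc]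

include c in
theorem inv_N : ∀ x ∈ N, ξ x ∈ N := fun x hx => by
  rw [← c.ker _ (c.inv x (c.le hx)), c.equi x (c.le hx), c.f_of_mem hx, mul_zero]

theorem f_eq_iff {x y : G} (hx : x ∈ M) (hy : y ∈ M) : c.f x = c.f y ↔ ∃ n ∈ N, y = x * n := by
  refine ⟨fun h => ⟨x⁻¹ * y, ?_, by group⟩, ?_⟩
  · rw [← c.ker _ (M.mul_mem (M.inv_mem hx) hy), c.add _ (M.inv_mem hx) _ hy, addOn_inv c.add hx, h,
      neg_add_cancel]
  · rintro ⟨n, hn, rfl⟩
    rw [c.add _ hx _ (c.le hn), c.f_of_mem hn, add_zero]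

theorem f_conj {x y : G} (hx : x ∈ M) (hy : y ∈ M) : c.f (y⁻¹ * x * y) = c.f x := by
  rw [c.add _ (M.mul_mem (M.inv_mem hy) hx) _ hy, c.add _ (M.inv_mem hy) _ hx, addOn_inv c.add hy]
  abel

include c in
theorem conj_mem {x n : G} (hx : x ∈ M) (hn : n ∈ N) : x⁻¹ * n * x ∈ N := by
  rw [← c.ker _ (M.mul_mem (M.mul_mem (M.inv_mem hx) (c.le hn)) hx), c.f_conj (c.le hn) hx,
    c.f_of_mem hn]

include c in
theorem comm_mem {x y : G} (hx : x ∈ M) (hy : y ∈ M) : x⁻¹ * (y⁻¹ * x * y) ∈ N := by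
  have h := M.mul_mem (M.mul_mem (M.inv_mem hy) hx) hy
  rw [← c.ker _ (M.mul_mem (M.inv_mem hx) h), c.add _ (M.inv_mem hx) _ h, c.f_conj hx hy,
    addOn_inv c.add hx, neg_add_cancel]

theorem f_inv [CharP F 2] {x : G} (hx : x ∈ M) : c.f x⁻¹ = c.f x := by
  rw [addOn_inv c.add hx, CharTwo.neg_eq]

include c in
theorem sq_mem [CharP F 2] {x : G} (hx : x ∈ M) : x * x ∈ N := by
  rw [← c.ker _ (M.mul_mem hx hx), c.add _ hx _ hx, CharTwo.add_self_eq_zero]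

include c in
theorem not_le : ¬ M ≤ N := fun h => by
  obtain ⟨x, hx, e⟩ := c.surj 1
  exact one_ne_zero (e.symm.trans (c.f_of_mem (h hx)))

theorem lift_fun {β : Type*} (φ : G → β) (h : ∀ x ∈ M, ∀ n ∈ N, φ (x * n) = φ x) :
    ∃ S : F → β, ∀ x ∈ M, S (c.f x) = φ x := by
  choose s hs hs' using c.surj
  refine ⟨fun y => φ (s y), fun x hx => ?_⟩
  obtain ⟨n, hn, e⟩ := (c.f_eq_iff hx (hs (c.f x))).1 (hs' _).symm
  simp only [e, h x hx n hn]

theorem lift_add {A : Type*} [AddCommGroup A] (φ : G → A)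
    (h : ∀ x ∈ M, ∀ y ∈ M, φ (x * y) = φ x + φ y) (h0 : ∀ n ∈ N, φ n = 0) :
    ∃ B : F →+ A, ∀ x ∈ M, B (c.f x) = φ x := by
  obtain ⟨S, hS⟩ := c.lift_fun φ fun x hx n hn => by rw [h x hx n (c.le hn), h0 n hn, add_zero]
  refine ⟨AddMonoidHom.mk' S fun p q => ?_, hS⟩
  obtain ⟨x, hx, rfl⟩ := c.surj p
  obtain ⟨y, hy, rfl⟩ := c.surj q
  rw [← c.add x hx y hy, hS _ (M.mul_mem hx hy), hS x hx, hS y hy, h x hx y hy]

theorem lift₂ {M' N' : Subgroup G} (c' : Co ξ M' N' F) (φ : G → G → F)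
    (h : ∀ x ∈ M, ∀ x' ∈ M, ∀ y ∈ M', φ (x * x') y = φ x y + φ x' y)
    (h' : ∀ x ∈ M, ∀ y ∈ M', ∀ y' ∈ M', φ x (y * y') = φ x y + φ x y')
    (h0 : ∀ n ∈ N, ∀ y ∈ M', φ n y = 0) (h0' : ∀ x ∈ M, ∀ n ∈ N', φ x n = 0) :
    ∃ B : F →+ F →+ F, ∀ x ∈ M, ∀ y ∈ M', B (c.f x) (c'.f y) = φ x y := by
  classical
  have h1 : ∀ x, ∃ B : F →+ F, x ∈ M → ∀ y ∈ M', B (c'.f y) = φ x y := fun x => by
    by_cases hx : x ∈ M
    · obtain ⟨B, hB⟩ := c'.lift_add (φ x) (h' x hx) (h0' x hx)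
      exact ⟨B, fun _ => hB⟩
    · exact ⟨0, fun h => absurd h hx⟩
  choose B hB using h1
  obtain ⟨C, hC⟩ := c.lift_add B (fun x hx x' hx' => AddMonoidHom.ext fun q => by
      obtain ⟨y, hy, rfl⟩ := c'.surj q
      rw [AddMonoidHom.add_apply, hB _ (M.mul_mem hx hx') y hy, hB x hx y hy, hB x' hx' y hy,
        h x hx x' hx' y hy])
    fun n hn => AddMonoidHom.ext fun q => by
      obtain ⟨y, hy, rfl⟩ := c'.surj q
      rw [hB n (c.le hn) y hy, h0 n hn y hy, AddMonoidHom.zero_apply]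
  exact ⟨C, fun x hx y hy => by rw [hC x hx, hB x hx y hy]⟩

include c in
/-- `M / N` is irreducible. -/
theorem le_of_not_le {L : Subgroup G} (hNL : N ≤ L) (hL : ∀ x ∈ L, x ∈ M → ξ x ∈ L) {x : G}
    (hx : x ∈ L) (hxM : x ∈ M) (hxN : x ∉ N) : M ≤ L := by
  intro y hy
  have hx0 : c.f x ≠ 0 := fun h => hxN ((c.ker x hxM).1 h)
  obtain ⟨w, hw, hwM, h1⟩ := c.prim.irr (imOn (L := L) c.add) (by
    rintro _ ⟨w, hw, hwM, rfl⟩
    exact ⟨ξ w, hL w hw hwM, c.inv w hwM, c.equi w hwM⟩) _ ⟨x, hx, hxM, rfl⟩ hx0 (c.f y)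
  obtain ⟨n, hn, rfl⟩ := (c.f_eq_iff hwM hy).1 h1
  exact L.mul_mem hw (hNL hn)

include c in
theorem card : Nat.card M = Nat.card F * Nat.card N := by
  let φ : M →* Multiplicative F := MonoidHom.mk' (fun x => Multiplicative.ofAdd (c.f x))
    fun x y => congrArg Multiplicative.ofAdd (c.add x x.2 y y.2)
  have h1 : φ.ker = N.subgroupOf M := by
    ext x
    rw [MonoidHom.mem_ker, Subgroup.mem_subgroupOf, ← c.ker x x.2]
    rfl
  have h2 : φ.range = ⊤ := MonoidHom.range_eq_top.2 fun y => by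
    obtain ⟨x, hx, e⟩ := c.surj y.toAdd
    exact ⟨⟨x, hx⟩, congrArg Multiplicative.ofAdd e⟩
  rw [← φ.ker.index_mul_card, Subgroup.index_ker, h2, h1, Subgroup.card_top,
    Nat.card_congr (Subgroup.subgroupOfEquivOfLe c.le).toEquiv]
  rfl

end Co

/-- A non-zero additive equivariant map is a coordinate. -/
theorem surj_of_equi {g : G → F} {a : F} (ha : Gd a) (hM : ∀ x ∈ M, ξ x ∈ M)
    (h : ∀ x ∈ M, ∀ y ∈ M, g (x * y) = g x + g y) (he : ∀ x ∈ M, g (ξ x) = a * g x) {x : G}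
    (hx : x ∈ M) (h0 : g x ≠ 0) (c : F) : ∃ y ∈ M, g y = c := by
  obtain ⟨w, hw, -, h1⟩ := ha.irr (imOn (L := M) h) (by
    rintro _ ⟨w, hw, -, rfl⟩
    exact ⟨ξ w, hM w hw, hM w hw, he w hw⟩) _ ⟨x, hx, hx, rfl⟩ h0 c
  exact ⟨w, hw, h1⟩

variable [Finite G]

omit [Finite G] in
theorem H0.mono (h : H0 ξ P Z) (hZ : Z ≤ M) (hM : M ≤ P) (hi : ∀ x ∈ M, ξ x ∈ M) : H0 ξ M Z :=
  ⟨h.two.to_le hM, hi, fun x => ⟨fun hx => ⟨hZ hx, ((h.mem_Z x).1 hx).2⟩,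
    fun hx => (h.mem_Z x).2 ⟨hM hx.1, hx.2⟩⟩, fun z hz x hx => h.central z hz x (hM hx), h.irr,
    fun k x hx => h.free k x (hM hx), h.big⟩

omit [Finite G] in
theorem HS.mono (h : HS ξ P Z) (hZ : Z ≤ M) (hM : M ≤ P) (hi : ∀ x ∈ M, ξ x ∈ M) : HS ξ M Z :=
  ⟨h.toH0.mono hZ hM hi, fun x hx => h.per x (hM hx)⟩

omit [Finite G] in
theorem H0.Z_le (h : H0 ξ P Z) : Z ≤ P := fun x hx => ((h.mem_Z x).1 hx).1

omit [Finite G] in
theorem H0.Z_sq (h : H0 ξ P Z) {z : G} (hz : z ∈ Z) : z * z = 1 := ((h.mem_Z z).1 hz).2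

omit [Finite G] in
theorem H0.Z_inv (h : H0 ξ P Z) : ∀ z ∈ Z, ξ z ∈ Z := fun z hz =>
  (h.mem_Z _).2 ⟨h.inv z (h.Z_le hz), by rw [← map_mul, h.Z_sq hz, map_one]⟩

omit [Finite G] in
theorem H0.Z_conj (h : H0 ξ P Z) {z x : G} (hz : z ∈ Z) (hx : x ∈ P) : x⁻¹ * z * x = z := by
  rw [mul_assoc, h.central z hz x hx, inv_mul_cancel_left]

omit [Finite G] in
/-- A non-trivial invariant subgroup contains `Z`. -/
theorem H0.Z_le_of_ne (h : H0 ξ P Z) (hM : M ≤ P) (hi : ∀ x ∈ M, ξ x ∈ M) {x : G} (hx : x ∈ M)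
    (hx1 : x ≠ 1) : Z ≤ M := by
  classical
  obtain ⟨n, hn⟩ := h.two ⟨x, hM hx⟩
  have hn' : x ^ 2 ^ n = 1 := congrArg Subtype.val hn
  have hex : ∃ n, x ^ 2 ^ n = 1 := ⟨n, hn'⟩
  obtain ⟨m, hm⟩ : ∃ m, Nat.find hex = m + 1 := Nat.exists_eq_succ_of_ne_zero (fun e => hx1 (by
    simpa [e] using Nat.find_spec hex))
  have h1 : x ^ 2 ^ m ≠ 1 := Nat.find_min hex (by omega)
  have h2 : x ^ 2 ^ m ∈ Z := (h.mem_Z _).2 ⟨P.pow_mem (hM hx) _, by
    rw [← pow_add, ← two_mul, ← pow_succ', ← hm, Nat.find_spec hex]⟩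
  exact h.irr M (fun y hy _ => hi y hy) _ (M.pow_mem hx _) h2 h1

variable [Finite F] [CharP F 2]

omit [Finite G] in
theorem cast_card_sub_one : ((Nat.card F - 1 : ℕ) : F) = 1 := by
  have := Fintype.ofFinite F
  rw [Nat.cast_sub Nat.card_pos, Nat.card_eq_fintype_card, FiniteField.cast_card_eq_zero,
    Nat.cast_one, zero_sub, CharTwo.neg_eq]

/-- Averaging over the powers of `ξ`. -/
noncomputable def avg (ξ : MulAut G) (g : G → F) (b : F) (x : G) : F :=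
  ∑ k ∈ Finset.range (Nat.card F - 1), b ^ k * g ((ξ ^ k) x)

omit [Finite G] [CharP F 2] in
theorem avg_equi {g : G → F} {a : F} (ha : a ≠ 0) {x : G} (hx : (ξ ^ (Nat.card F - 1)) x = x) :
    avg ξ g a⁻¹ (ξ x) = a * avg ξ g a⁻¹ x := by
  have h1 := Finset.sum_range_succ (fun k => a⁻¹ ^ k * g ((ξ ^ k) x)) (Nat.card F - 1)
  rw [Finset.sum_range_succ', hx, pow_card_sub_one (inv_ne_zero ha), pow_zero, pow_zero,
    MulAut.one_apply, add_left_inj] at h1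
  rw [avg, avg, ← h1, Finset.mul_sum]
  refine Finset.sum_congr rfl fun k _ => ?_
  rw [pow_succ, pow_succ, MulAut.mul_apply]
  field_simp

omit [Finite G] [Finite F] [CharP F 2] in
theorem avg_add {g : G → F} (hM : ∀ x ∈ M, ξ x ∈ M)
    (h : ∀ x ∈ M, ∀ y ∈ M, g (x * y) = g x + g y) (b : F) :
    ∀ x ∈ M, ∀ y ∈ M, avg ξ g b (x * y) = avg ξ g b x + avg ξ g b y := fun x hx y hy => by
  rw [avg, avg, avg, ← Finset.sum_add_distrib]
  refine Finset.sum_congr rfl fun k _ => ?_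
  rw [map_mul, h _ (pow_inv_mem hM k hx) _ (pow_inv_mem hM k hy), mul_add]

omit [Finite G] in
theorem avg_eq {g : G → F} {a : F} (ha : a ≠ 0) {x : G}
    (h : ∀ k : ℕ, g ((ξ ^ k) x) = a ^ k * g x) : avg ξ g a⁻¹ x = g x := by
  rw [avg, Finset.sum_congr rfl (g := fun _ => g x) fun k _ => by
    rw [h, ← mul_assoc, ← mul_pow, inv_mul_cancel₀ ha, one_pow, one_mul]]
  rw [Finset.sum_const, Finset.card_range, nsmul_eq_mul, cast_card_sub_one, one_mul]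

omit [Finite G] in
theorem exists_avg_ne {g : G → F} {x : G} (h : g x ≠ 0) : ∃ a : F, a ≠ 0 ∧ avg ξ g a⁻¹ x ≠ 0 := by
  classical
  have := Fintype.ofFinite F
  by_contra! h0
  have h1 : ∑ b : Fˣ, avg ξ g b x = 0 := Finset.sum_eq_zero fun b _ => by
    simpa using h0 (b⁻¹ : Fˣ) (Units.ne_zero _)
  simp only [avg] at h1
  rw [Finset.sum_comm, Finset.sum_eq_single 0] at h1
  · simp only [pow_zero, one_mul, MulAut.one_apply, Finset.sum_const, Finset.card_univ,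
      nsmul_eq_mul] at h1
    rw [← Nat.card_eq_fintype_card, Nat.card_units, cast_card_sub_one, one_mul] at h1
    exact h h1
  · intro k hk hk0
    rw [← Finset.sum_mul, FiniteField.sum_pow_units, if_neg, zero_mul]
    rw [← Nat.card_eq_fintype_card]
    exact Nat.not_dvd_of_pos_of_lt (Nat.pos_of_ne_zero hk0) (Finset.mem_range.1 hk)
  · intro h2
    have : 1 < Nat.card F := Finite.one_lt_card
    exact absurd (Finset.mem_range.2 (by omega)) h2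

omit [Finite G] [Finite F] [CharP F 2] in
theorem exists_sec_sq (hle : N ≤ M) (hsq : ∀ x ∈ M, x * x ∈ N) :
    ∃ (A : Type u) (_ : AddCommGroup A) (_ : Module (ZMod 2) A),
      Nonempty (Sec (∅ : Set Unit) (fun _ x => x) M N A) := by
  obtain ⟨A, _, ⟨S⟩⟩ := exists_sec (E := (∅ : Set Unit)) (act := fun _ x => x) hle
    (fun _ h => h.elim) (fun _ h => h.elim) (fun _ h => h.elim) fun x hx y hy => by
      have : x⁻¹ * y⁻¹ * x * y = x⁻¹ * x⁻¹ * (x * y⁻¹ * (x * y⁻¹)) * (y * y) := by group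
      rw [this]
      exact N.mul_mem (N.mul_mem (hsq _ (M.inv_mem hx)) (hsq _ (M.mul_mem hx (M.inv_mem hy))))
        (hsq _ hy)
  refine ⟨A, inferInstance, AddCommGroup.zmodModule fun b => ?_, ⟨S⟩⟩
  obtain ⟨x, hx, rfl⟩ := S.π_surj b
  rw [two_nsmul, ← S.π_mul x hx x hx, S.π_of_mem (hsq x hx)]

omit [Finite G] [CharP F 2] in
theorem H0.exists_ne (h : H0 ξ P Z) (hF : Nat.card F = Nat.card Z) : ∃ c : F, c ≠ 0 ∧ c ≠ 1 := by
  classical
  by_contra! h0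
  have h1 : Nat.card F ≤ ({0, 1} : Finset F).card := by
    have := Fintype.ofFinite F
    rw [Nat.card_eq_fintype_card]
    refine Finset.card_le_card fun x _ => ?_
    by_cases hx : x = 0
    · simp [hx]
    · simp [h0 x hx]
  have h2 := Finset.card_le_two (a := (0 : F)) (b := 1)
  have := h.big
  omega

/-- Existence of a coordinate on a quotient of an elementary abelian section. -/
theorem HS.exists_co (h : HS ξ P Z) (hF : Nat.card F = Nat.card Z) (hM : M ≤ P)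
    (hi : ∀ x ∈ M, ξ x ∈ M) (hle : N ≤ M) (hiN : ∀ x ∈ N, ξ x ∈ N) (hsq : ∀ x ∈ M, x * x ∈ N)
    (hne : ¬ M ≤ N) : ∃ N', N ≤ N' ∧ Nonempty (Co ξ M N' F) := by
  obtain ⟨A, _, _, ⟨S⟩⟩ := exists_sec_sq hle hsq
  obtain ⟨x, hx, hxN⟩ := SetLike.not_le_iff_exists.1 hne
  obtain ⟨φ, hφ⟩ : ∃ φ : Module.Dual (ZMod 2) A, φ (S.π x) ≠ 0 := by
    by_contra! h0
    exact hxN ((S.π_eq_zero x hx).1 ((Module.forall_dual_apply_eq_zero_iff (ZMod 2) _).1 h0))
  let g : G → F := fun y => ZMod.castHom (dvd_refl 2) F (φ (S.π y))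
  have hg : ∀ x ∈ M, ∀ y ∈ M, g (x * y) = g x + g y := fun x hx y hy => by
    simp only [g, S.π_mul x hx y hy, map_add]
  have hgx : g x ≠ 0 := by
    have := Fact.mk Nat.prime_two
    exact (map_ne_zero _).2 hφ
  obtain ⟨a, ha, hax⟩ := exists_avg_ne (ξ := ξ) hgx
  have hadd := avg_add hi hg a⁻¹
  have hequi : ∀ y ∈ M, avg ξ g a⁻¹ (ξ y) = a * avg ξ g a⁻¹ y := fun y hy =>
    avg_equi ha (hF ▸ h.per y (hM hy))
  have hprim : Gd a := Good.gd (h2 := h.exists_ne hF) <| And.intro ha fun k hk => by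
    by_contra hnd
    have hpow : ∀ y ∈ M, ∀ k : ℕ, avg ξ g a⁻¹ ((ξ ^ k) y) = a ^ k * avg ξ g a⁻¹ y := by
      intro y hy k
      induction k with
      | zero => simp
      | succ k ih =>
        rw [pow_succ', MulAut.mul_apply, hequi _ (pow_inv_mem hi k hy), ih, pow_succ', mul_assoc]
    let ψ : M → M := fun y => ⟨(y : G)⁻¹ * (ξ ^ k) y, M.mul_mem (M.inv_mem y.2) (pow_inv_mem hi k y.2)⟩
    have hψ : Function.Injective ψ := by
      intro y y' e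
      have e1 : (y : G)⁻¹ * (ξ ^ k) y = (y' : G)⁻¹ * (ξ ^ k) y' := congrArg Subtype.val e
      have e2 : (ξ ^ k) (y * (y' : G)⁻¹) = y * (y' : G)⁻¹ := by
        rw [map_mul, map_inv]
        calc (ξ ^ k) y * ((ξ ^ k) y')⁻¹ = y * ((y : G)⁻¹ * (ξ ^ k) y) * ((ξ ^ k) y')⁻¹ := by group
          _ = _ := by rw [e1]; group
      by_contra hne
      exact hnd (hF ▸ h.free k _ (hM (M.mul_mem y.2 (M.inv_mem y'.2)))
        (fun h => hne (Subtype.ext (mul_inv_eq_one.1 h))) e2)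
    obtain ⟨y, hy⟩ := Finite.injective_iff_surjective.1 hψ ⟨x, hx⟩
    have e1 : (y : G)⁻¹ * (ξ ^ k) y = x := congrArg Subtype.val hy
    apply hax
    rw [← e1, hadd _ (M.inv_mem y.2) _ (pow_inv_mem hi k y.2), hpow _ y.2, hk, one_mul,
      addOn_inv hadd y.2, neg_add_cancel]
  refine ⟨kerOn hadd, fun n hn => ⟨hle hn, Finset.sum_eq_zero fun k _ => ?_⟩,
    ⟨⟨_, a, hprim, fun _ hy => hy.1, hi, hadd, hequi, surj_of_equi hprim hi hadd hequi hx hax,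
      fun y hy => ⟨fun h => ⟨hy, h⟩, fun h => h.2⟩⟩⟩⟩
  simp only [g, S.π_of_mem (pow_inv_mem hiN k hn), map_zero, mul_zero]

omit [Finite G] in
/-- Maschke: a coordinate on `M / N` extends to an elementary abelian section `R / N`. -/
theorem HS.exists_co_extend (h : HS ξ P Z) (hF : Nat.card F = Nat.card Z) (c : Co ξ M N F)
    (hR : R ≤ P) (hi : ∀ x ∈ R, ξ x ∈ R) (hle : M ≤ R) (hsq : ∀ x ∈ R, x * x ∈ N) :
    ∃ (M' : Subgroup G) (c' : Co ξ R M' F), c'.a = c.a ∧ ∀ x ∈ M, c'.f x = c.f x := by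
  obtain ⟨A, _, _, ⟨S⟩⟩ := exists_sec_sq (c.le.trans hle) hsq
  obtain ⟨j, hj⟩ := c.lift_add S.π (fun x hx y hy => S.π_mul x (hle hx) y (hle hy))
    fun n hn => S.π_of_mem hn
  let _ : Module (ZMod 2) F := AddCommGroup.zmodModule fun x => by
    rw [two_nsmul, CharTwo.add_self_eq_zero]
  have := Fact.mk Nat.prime_two
  obtain ⟨L, hL⟩ := (j.toZModLinearMap 2).exists_leftInverse_of_injective (by
    rw [LinearMap.ker_eq_bot']
    intro y hy
    obtain ⟨x, hx, rfl⟩ := c.surj y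
    exact c.f_of_mem ((S.π_eq_zero x (hle hx)).1 ((hj x hx).symm.trans hy)))
  let g : G → F := fun y => L (S.π y)
  have hg : ∀ x ∈ R, ∀ y ∈ R, g (x * y) = g x + g y := fun x hx y hy => by
    simp only [g, S.π_mul x hx y hy, map_add]
  have hgM : ∀ x ∈ M, g x = c.f x := fun x hx => by
    simp only [g, ← hj x hx]
    exact LinearMap.congr_fun hL (c.f x)
  have hadd := avg_add hi hg c.a⁻¹
  have hequi : ∀ y ∈ R, avg ξ g c.a⁻¹ (ξ y) = c.a * avg ξ g c.a⁻¹ y := fun y hy =>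
    avg_equi c.prim.ne (hF ▸ h.per y (hR hy))
  have hM : ∀ x ∈ M, avg ξ g c.a⁻¹ x = c.f x := fun x hx => by
    rw [avg_eq c.prim.ne, hgM x hx]
    intro k
    rw [hgM _ (pow_inv_mem c.inv k hx), hgM x hx, c.f_pow_apply k hx]
  refine ⟨kerOn hadd, ⟨_, c.a, c.prim, fun _ hy => hy.1, hi, hadd, hequi, fun y => ?_,
    fun y hy => ⟨fun h => ⟨hy, h⟩, fun h => h.2⟩⟩, rfl, hM⟩
  obtain ⟨x, hx, rfl⟩ := c.surj y
  exact ⟨x, hle hx, hM x hx⟩

/-- The restriction of a coordinate to a complement. -/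
def Co.restrict {M' : Subgroup G} (c : Co ξ R M F) (c' : Co ξ R M' F) (c₀ : Co ξ M N F)
    (h : ∀ x ∈ M, c'.f x = c₀.f x) : Co ξ M' N F where
  f := c.f
  a := c.a
  prim := c.prim
  le := fun n hn => (c'.ker n (c.le (c₀.le hn))).1 ((h n (c₀.le hn)).trans (c₀.f_of_mem hn))
  inv := c'.inv_N
  add := fun x hx y hy => c.add x (c'.le hx) y (c'.le hy)
  equi := fun x hx => c.equi x (c'.le hx)
  surj := fun y => by
    obtain ⟨u, hu, rfl⟩ := c.surj y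
    obtain ⟨x, hx, e⟩ := c₀.surj (c'.f u)
    have hxR := c.le hx
    refine ⟨u * x⁻¹, (c'.ker _ (R.mul_mem hu (R.inv_mem hxR))).1 ?_, ?_⟩
    · rw [c'.add _ hu _ (R.inv_mem hxR), addOn_inv c'.add hxR, h x hx, e, add_neg_cancel]
    · rw [c.add _ hu _ (R.inv_mem hxR), c.f_of_mem (M.inv_mem hx), add_zero]
  ker := fun x hx => by
    rw [c.ker x (c'.le hx)]
    refine ⟨fun hM => (c₀.ker x hM).1 ?_, fun hN => c₀.le hN⟩
    rw [← h x hM, c'.f_of_mem hx]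

/-- The coordinate on `Z`. -/
theorem HS.exists_co_Z (h : HS ξ P Z) (hF : Nat.card F = Nat.card Z) : Nonempty (Co ξ Z ⊥ F) := by
  have hne : ¬ Z ≤ ⊥ := fun e => by
    have := h.big
    rw [le_bot_iff.1 e, Subgroup.card_bot] at this
    omega
  obtain ⟨N', -, ⟨c⟩⟩ := h.exists_co hF h.Z_le h.Z_inv bot_le (fun x hx => by
    rw [Subgroup.mem_bot.1 hx, map_one]; exact Subgroup.one_mem _)
    (fun x hx => Subgroup.mem_bot.2 (h.Z_sq hx)) hne
  have h1 := c.card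
  rw [hF] at h1
  have h2 : N' = ⊥ := Subgroup.card_eq_one.1
    (Nat.eq_of_mul_eq_mul_left (Nat.card_pos (α := Z)) (by rw [← h1, mul_one]))
  exact ⟨h2 ▸ c⟩

/-- In a nilpotent group `P` normalising `M`, some element of `M - N` has all its commutators with
`P` in `N`. -/
theorem exists_comm_mem (hP : IsPGroup 2 P) (hM : M ≤ P) (hn : ∀ x ∈ M, ∀ g ∈ P, g⁻¹ * x * g ∈ M)
    (hne : ¬ M ≤ N) : ∃ x ∈ M, x ∉ N ∧ ∀ g ∈ P, x⁻¹ * (g⁻¹ * x * g) ∈ N := by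
  have := Fact.mk Nat.prime_two
  obtain ⟨n, hn'⟩ := (Subgroup.isNilpotent_iff_lowerCentralSeries P).1 hP.isNilpotent
  by_contra! h
  have key : ∀ i, ∃ x ∈ M, x ∉ N ∧ x ∈ P.lowerCentralSeries i := by
    intro i
    induction i with
    | zero =>
      obtain ⟨x, hx, hxN⟩ := SetLike.not_le_iff_exists.1 hne
      exact ⟨x, hx, hxN, hM hx⟩
    | succ i ih =>
      obtain ⟨x, hx, hxN, hi⟩ := ih
      obtain ⟨g, hg, hg'⟩ := h x hx hxN
      refine ⟨_, M.mul_mem (M.inv_mem hx) (hn x hx g hg), hg', ?_⟩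
      have := Subgroup.commutator_mem_commutator ((P.lowerCentralSeries i).inv_mem hi) (P.inv_mem hg)
      rw [commutatorElement_def, inv_inv, inv_inv] at this
      rw [Subgroup.lowerCentralSeries_succ]
      simpa only [mul_assoc] using this
  obtain ⟨x, -, hxN, hx⟩ := key n
  rw [hn', Subgroup.mem_bot] at hx
  exact hxN (hx ▸ N.one_mem)

end Cfsg.Lib.Shaw
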