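import Cfsg.Agent.Shaw.Co

/-!
Suzuki 2-groups with a solvable transitive automorphism group, II: a non-abelian cover of an abelian invariant subgroup has exponent four.
-/

set_option autoImplicit false

namespace Cfsg.Lib.Shaw

open Cfsg.Lib.Suz

universe u

variable {G : Type u} [Group G] {ξ : MulAut G} {P Z A B M N : Subgroup G} {F : Type*} [Field F]

/-- The commutator `x⁻¹ x ^ y`. -/
def cm (x y : G) : G := x⁻¹ * (y⁻¹ * x * y)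

theorem cm_mul_left (u u' v : G) : cm (u * u') v = u'⁻¹ * cm u v * u' * cm u' v := by
  simp only [cm]; group

theorem cm_mul_right (u v v' : G) : cm u (v * v') = cm u v' * (v'⁻¹ * cm u v * v') := by
  simp only [cm]; group

theorem cm_eq_one {u v : G} : cm u v = 1 ↔ u * v = v * u := by
  rw [cm, inv_mul_eq_one, mul_assoc, eq_inv_mul_iff_mul_eq, eq_comm]

theorem cm_self (u : G) : cm u u = 1 := cm_eq_one.2 rfl

theorem cm_symm (u v : G) : cm v u = (cm u v)⁻¹ := by simp only [cm]; group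

theorem map_cm (u v : G) : ξ (cm u v) = cm (ξ u) (ξ v) := by simp only [cm, map_mul, map_inv]

theorem conj_eq_mul_cm (u v : G) : v⁻¹ * u * v = u * cm u v := by simp only [cm]; group

theorem mul_sq_eq (u v : G) : u * v * (u * v) = u * u * cm u v⁻¹ * (v * v) := by
  simp only [cm]; group

theorem cm_mem {u v : G} (hu : u ∈ M) (hv : v ∈ M) : cm u v ∈ M :=
  M.mul_mem (M.inv_mem hu) (M.mul_mem (M.mul_mem (M.inv_mem hv) hu) hv)

theorem conj_pow_inv (u x : G) (n : ℕ) : (u⁻¹ * x * u) ^ n = u⁻¹ * x ^ n * u := by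
  have := conj_pow (a := u⁻¹) (b := x) (i := n)
  rwa [inv_inv] at this

theorem cm_pow {x u : G} (h : x * (u⁻¹ * x * u) = u⁻¹ * x * u * x) (n : ℕ) :
    cm x u ^ n = cm (x ^ n) u := by
  rw [cm, cm, (Commute.inv_left h).mul_pow, inv_pow, conj_pow_inv]

theorem pow_two_pow_succ (x : G) (i : ℕ) : x ^ 2 ^ (i + 1) = x ^ 2 ^ i * x ^ 2 ^ i := by
  rw [← pow_add, pow_succ, mul_two]

theorem Co.eq_one (zc : Co ξ Z ⊥ F) {z : G} (hz : z ∈ Z) (h : zc.f z = 0) : z = 1 :=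
  Subgroup.mem_bot.1 ((zc.ker z hz).1 h)

theorem Co.inj (zc : Co ξ Z ⊥ F) {z z' : G} (hz : z ∈ Z) (hz' : z' ∈ Z) (h : zc.f z = zc.f z') :
    z = z' := by
  obtain ⟨n, hn, rfl⟩ := (zc.f_eq_iff hz hz').1 h
  rw [Subgroup.mem_bot.1 hn, mul_one]

variable [Finite G] [Finite F] [CharP F 2]

omit [Finite F] [CharP F 2] in
/-- An abelian invariant subgroup is homocyclic. -/
theorem HS.exists_co_ab (h : HS ξ A Z) (zc : Co ξ Z ⊥ F) (hA : ∀ x ∈ A, ∀ y ∈ A, x * y = y * x) :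
    ∃ (e : ℕ) (A₁ : Subgroup G) (cA : Co ξ A A₁ F), cA.a = zc.a ∧
      (∀ x, cA.f x = zc.f (x ^ 2 ^ e)) ∧ (∀ x ∈ A, x ^ 2 ^ (e + 1) = 1) ∧
      ∀ j i, i + j = e + 1 → ∀ y ∈ A, y ^ 2 ^ j = 1 → ∃ w ∈ A, y = w ^ 2 ^ i := by
  classical
  have := Fact.mk Nat.prime_two
  obtain ⟨n, hn⟩ := IsPGroup.iff_card.1 h.two
  have hex : ∃ n, ∀ x ∈ A, x ^ 2 ^ n = 1 := ⟨n, fun x hx => by
    rw [← hn]; exact congrArg Subtype.val (pow_card_eq_one' (x := (⟨x, hx⟩ : A)))⟩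
  obtain ⟨e, he⟩ : ∃ e, Nat.find hex = e + 1 := Nat.exists_eq_succ_of_ne_zero (fun e => by
    refine zc.not_le fun z hz => Subgroup.mem_bot.2 ?_
    simpa [e] using Nat.find_spec hex z (h.Z_le hz))
  have h1 : ∀ x ∈ A, x ^ 2 ^ (e + 1) = 1 := he ▸ Nat.find_spec hex
  have h2 : ¬ ∀ x ∈ A, x ^ 2 ^ e = 1 := Nat.find_min hex (by omega)
  push Not at h2
  obtain ⟨x₀, hx₀, hx₀'⟩ := h2
  have hZ : ∀ x ∈ A, x ^ 2 ^ e ∈ Z := fun x hx =>
    (h.mem_Z _).2 ⟨A.pow_mem hx _, by rw [← pow_two_pow_succ, h1 x hx]⟩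
  have hadd : ∀ x ∈ A, ∀ y ∈ A, zc.f ((x * y) ^ 2 ^ e) = zc.f (x ^ 2 ^ e) + zc.f (y ^ 2 ^ e) :=
    fun x hx y hy => by rw [Commute.mul_pow (hA x hx y hy), zc.add _ (hZ x hx) _ (hZ y hy)]
  have hequi : ∀ x ∈ A, zc.f ((ξ x) ^ 2 ^ e) = zc.a * zc.f (x ^ 2 ^ e) := fun x hx => by
    rw [← map_pow, zc.equi _ (hZ x hx)]
  have hsurj := surj_of_equi (g := fun x => zc.f (x ^ 2 ^ e)) zc.prim h.inv hadd hequi hx₀
    fun e => hx₀' (zc.eq_one (hZ _ hx₀) e)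
  refine ⟨e, kerOn (g := fun x => zc.f (x ^ 2 ^ e)) hadd, ⟨fun x => zc.f (x ^ 2 ^ e), zc.a, zc.prim,
    fun _ hy => hy.1, h.inv, hadd, hequi, hsurj, fun y hy => ⟨fun h => ⟨hy, h⟩, fun h => h.2⟩⟩,
    rfl, fun _ => rfl, h1, fun j => ?_⟩
  induction j with
  | zero => exact fun i _ y _ hy => ⟨1, A.one_mem, by simpa using hy⟩
  | succ j ih =>
    intro i hi y hy hyj
    have hyZ : y ^ 2 ^ j ∈ Z := (h.mem_Z _).2 ⟨A.pow_mem hy _, by rw [← pow_two_pow_succ, hyj]⟩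
    obtain ⟨w, hw, e1⟩ := hsurj (zc.f (y ^ 2 ^ j))
    have e2 := zc.inj (hZ w hw) hyZ e1
    have hwi := A.inv_mem (A.pow_mem hw (2 ^ i))
    obtain ⟨w', hw', e3⟩ := ih (i + 1) (by omega) _ (A.mul_mem hy hwi) (by
      rw [Commute.mul_pow (hA _ hy _ hwi), inv_pow, ← pow_mul, ← pow_add,
        show i + j = e by omega, e2, mul_inv_cancel])
    refine ⟨w' ^ 2 * w, A.mul_mem (A.pow_mem hw' 2) hw, ?_⟩
    rw [Commute.mul_pow (hA _ (A.pow_mem hw' 2) _ hw), ← pow_mul, ← pow_succ', ← e3,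
      inv_mul_cancel_right]

section Cover

variable (h : HS ξ B Z) (zc : Co ξ Z ⊥ F) (c : Co ξ B A F)
  (hA : ∀ x ∈ A, ∀ y ∈ A, x * y = y * x)

omit [Finite G] [Finite F] [CharP F 2] in
include h c hA in
/-- Additivity of `x ↦ zc (x ^ 2 ^ i)` on products of the shape that occurs in commutators. -/
theorem pz_mul {i : ℕ} {x y u : G} (hx : x ∈ A) (hy : y ∈ A) (hu : u ∈ B) (hx' : x ^ 2 ^ (i + 1) = 1)
    (hy' : y ^ 2 ^ (i + 1) = 1) :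
    zc.f ((u⁻¹ * x * u * y) ^ 2 ^ i) = zc.f (x ^ 2 ^ i) + zc.f (y ^ 2 ^ i) ∧
      zc.f ((y * (u⁻¹ * x * u)) ^ 2 ^ i) = zc.f (x ^ 2 ^ i) + zc.f (y ^ 2 ^ i) := by
  have h1 : x ^ 2 ^ i ∈ Z :=
    (h.mem_Z _).2 ⟨B.pow_mem (c.le hx) _, by rw [← pow_two_pow_succ, hx']⟩
  have h2 : y ^ 2 ^ i ∈ Z :=
    (h.mem_Z _).2 ⟨B.pow_mem (c.le hy) _, by rw [← pow_two_pow_succ, hy']⟩
  have h3 := hA _ (c.conj_mem hu hx) _ hy
  rw [← h3, and_self, Commute.mul_pow h3, conj_pow_inv, h.Z_conj h1 hu, zc.add _ h1 _ h2]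

variable {e : ℕ} {A₁ : Subgroup G} (cA : Co ξ A A₁ F) (hf : ∀ x, cA.f x = zc.f (x ^ 2 ^ e))
  (he : ∀ x ∈ A, x ^ 2 ^ (e + 1) = 1)
  (hH : ∀ j i, i + j = e + 1 → ∀ y ∈ A, y ^ 2 ^ j = 1 → ∃ w ∈ A, y = w ^ 2 ^ i)

omit [Finite G] [Finite F] [CharP F 2] in
include h c hf he in
theorem pow_eq_one_iff_f {x : G} (hx : x ∈ A) : cA.f x = 0 ↔ x ^ 2 ^ e = 1 := by
  rw [hf]
  exact ⟨zc.eq_one ((h.mem_Z _).2 ⟨B.pow_mem (c.le hx) _, by rw [← pow_two_pow_succ, he x hx]⟩),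
    fun e => by rw [e, zc.f_one]⟩

omit [Finite G] in
include h c hA hf he hH in
theorem cover_alt (ha : cA.a = zc.a) (hc : ∀ u ∈ B, ∀ v ∈ B, cA.f (cm u v) = 0) {u₀ : G}
    (hu₀ : u₀ ∈ B) (hu₀' : cA.f (u₀ * u₀) ≠ 0) : ∀ u ∈ B, ∀ v ∈ B, u * v = v * u := by
  have hcm : ∀ u ∈ B, ∀ v ∈ B, cm u v ∈ A := fun u hu v hv => c.comm_mem hu hv
  have hadd : ∀ u ∈ B, ∀ v ∈ B, cA.f (u * v * (u * v)) = cA.f (u * u) + cA.f (v * v) :=
    fun u hu v hv => by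
      have h1 := hcm u hu _ (B.inv_mem hv)
      rw [mul_sq_eq, cA.add _ (A.mul_mem (c.sq_mem hu) h1) _ (c.sq_mem hv),
        cA.add _ (c.sq_mem hu) _ h1, hc u hu _ (B.inv_mem hv), add_zero]
  have hequi : ∀ u ∈ B, cA.f (ξ u * ξ u) = zc.a * cA.f (u * u) := fun u hu => by
    rw [← map_mul, cA.equi _ (c.sq_mem hu), ha]
  have hA0 : ∀ x ∈ A, cA.f (x * x) = 0 := fun x hx => cA.f_of_mem (cA.sq_mem hx)
  let c' : Co ξ B A F := ⟨fun u => cA.f (u * u), zc.a, zc.prim, c.le, c.inv, hadd, hequi,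
    surj_of_equi (g := fun u => cA.f (u * u)) zc.prim c.inv hadd hequi hu₀ hu₀', fun x hx =>
      ⟨fun h0 => by
        by_contra hxA
        exact hu₀' (c.le_of_not_le (L := kerOn (g := fun u => cA.f (u * u)) hadd)
          (fun n hn => ⟨c.le hn, hA0 n hn⟩)
          (fun y hy hyB => ⟨c.inv y hyB, by
            have := hy.2
            simp only at this ⊢
            rw [hequi y hyB, this, mul_zero]⟩) ⟨hx, h0⟩ hx hxA hu₀).2, hA0 x⟩⟩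
  have step : ∀ i, (∀ u ∈ B, ∀ v ∈ B, cm u v ^ 2 ^ (i + 1) = 1) →
      ∀ u ∈ B, ∀ v ∈ B, cm u v ^ 2 ^ i = 1 := by
    intro i hi
    have hl : ∀ u ∈ B, ∀ u' ∈ B, ∀ v ∈ B, zc.f (cm (u * u') v ^ 2 ^ i) =
        zc.f (cm u v ^ 2 ^ i) + zc.f (cm u' v ^ 2 ^ i) := fun u hu u' hu' v hv => by
      rw [cm_mul_left, (pz_mul h zc c hA (hcm u hu v hv) (hcm u' hu' v hv) hu' (hi u hu v hv)
        (hi u' hu' v hv)).1]
    have hr : ∀ u ∈ B, ∀ v ∈ B, ∀ v' ∈ B, zc.f (cm u (v * v') ^ 2 ^ i) =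
        zc.f (cm u v ^ 2 ^ i) + zc.f (cm u v' ^ 2 ^ i) := fun u hu v hv v' hv' => by
      rw [cm_mul_right, (pz_mul h zc c hA (hcm u hu v hv) (hcm u hu v' hv') hv' (hi u hu v hv)
        (hi u hu v' hv')).2]
    have hn : ∀ n ∈ A, ∃ u ∈ B, ∃ w ∈ B, n = u * u * (w * w) := fun n hn => by
      obtain ⟨u, hu, e1⟩ := c'.surj (cA.f n)
      obtain ⟨n₁, hn₁, e2⟩ := (cA.f_eq_iff (c.sq_mem hu) hn).1 e1
      obtain ⟨w, hw, e3⟩ := hH e 1 (by omega) n₁ (cA.le hn₁)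
        ((pow_eq_one_iff_f h zc c cA hf he (cA.le hn₁)).1 (cA.f_of_mem hn₁))
      exact ⟨u, hu, w, c.le hw, by rw [e2, e3, pow_one, pow_two]⟩
    obtain ⟨C, hC⟩ := c'.lift₂ c' (fun u v => zc.f (cm u v ^ 2 ^ i)) hl hr
      (fun n hn' v hv => by
        obtain ⟨u, hu, w, hw, rfl⟩ := hn n hn'
        rw [hl _ (B.mul_mem hu hu) _ (B.mul_mem hw hw) v hv, hl u hu u hu v hv, hl w hw w hw v hv,
          CharTwo.add_self_eq_zero, CharTwo.add_self_eq_zero, add_zero])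
      (fun v hv n hn' => by
        obtain ⟨u, hu, w, hw, rfl⟩ := hn n hn'
        rw [hr v hv _ (B.mul_mem hu hu) _ (B.mul_mem hw hw), hr v hv u hu u hu, hr v hv w hw w hw,
          CharTwo.add_self_eq_zero, CharTwo.add_self_eq_zero, add_zero])
    have hZ : ∀ u ∈ B, ∀ v ∈ B, cm u v ^ 2 ^ i ∈ Z := fun u hu v hv =>
      (h.mem_Z _).2 ⟨B.pow_mem (cm_mem hu hv) _, by rw [← pow_two_pow_succ, hi u hu v hv]⟩
    intro u hu v hv
    refine zc.eq_one (hZ u hu v hv) ?_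
    rw [← hC u hu v hv]
    refine alt_eq_zero zc.prim.big zc.prim.good C (fun x => ?_) (fun x y => ?_) _ _
    · obtain ⟨w, hw, rfl⟩ := c'.surj x
      rw [hC w hw w hw, cm_self, one_pow, zc.f_one]
    · obtain ⟨w, hw, rfl⟩ := c'.surj x
      obtain ⟨w', hw', rfl⟩ := c'.surj y
      have e1 := c'.equi w hw
      have e2 := c'.equi w' hw'
      change _ = zc.a * _ at e1 e2
      rw [← e1, ← e2, hC _ (c.inv w hw) _ (c.inv w' hw'), hC w hw w' hw', ← map_cm, ← map_pow,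
        zc.equi _ (hZ w hw w' hw')]
  have fin : ∀ i, (∀ u ∈ B, ∀ v ∈ B, cm u v ^ 2 ^ i = 1) → ∀ u ∈ B, ∀ v ∈ B, u * v = v * u := by
    intro i
    induction i with
    | zero => exact fun h u hu v hv => cm_eq_one.1 (by simpa using h u hu v hv)
    | succ i ih => exact fun h => ih (step i h)
  exact fin (e + 1) fun u hu v hv => he _ (hcm u hu v hv)

omit [Finite G] in
include h c hA hf he hH in
theorem cover_E (hZ : Z ≤ A) (ha : cA.a = zc.a) {e' : ℕ} (hee : e = e' + 1)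
    (hE : ∀ u ∈ B, ∀ x ∈ A, cm x u ^ 2 ^ e' = 1) : ∀ u ∈ B, ∀ v ∈ B, u * v = v * u := by
  have hxu : ∀ x ∈ A, ∀ u ∈ B, x * (u⁻¹ * x * u) = u⁻¹ * x * u * x := fun x hx u hu =>
    hA _ hx _ (c.conj_mem hu hx)
  have hcA : ∀ x ∈ A, ∀ u ∈ B, cm x u ∈ A := fun x hx u hu =>
    A.mul_mem (A.inv_mem hx) (c.conj_mem hu hx)
  obtain ⟨u₀, hu₀, hu₀A⟩ := SetLike.not_le_iff_exists.1 c.not_le
  refine cover_alt h zc c hA cA hf he hH ha (fun u hu v hv => ?_) hu₀ fun h0 => hu₀A ?_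
  · have h1 := c.comm_mem hu hv
    change cm u v ∈ A at h1
    rw [pow_eq_one_iff_f h zc c cA hf he h1]
    have h2 := hE v hv _ (c.sq_mem hu)
    rw [cm_mul_left, conj_eq_mul_cm, Commute.mul_pow (hA _ (A.mul_mem h1 (hcA _ h1 u hu)) _ h1),
      Commute.mul_pow (hA _ h1 _ (hcA _ h1 u hu)), hE u hu _ h1, mul_one] at h2
    rw [hee, pow_two_pow_succ, h2]
  · obtain ⟨w, hw, e1⟩ := hH e 1 (by omega) _ (c.sq_mem hu₀)
      ((pow_eq_one_iff_f h zc c cA hf he (c.sq_mem hu₀)).1 h0)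
    rw [pow_one] at e1
    have hu₁ : u₀ * w⁻¹ ∈ B := B.mul_mem hu₀ (B.inv_mem (c.le hw))
    have e2 : cm w u₀ ^ 2 = 1 := by
      rw [cm_pow (hxu w hw u₀ hu₀), ← e1, cm_eq_one, mul_assoc]
    have e3 : u₀ * w⁻¹ * (u₀ * w⁻¹) = (cm w u₀)⁻¹ := by
      have h1 := hA _ (A.mul_mem hw hw) _ (A.inv_mem (hcA w hw u₀ hu₀))
      calc u₀ * w⁻¹ * (u₀ * w⁻¹) = u₀ * u₀ * (u₀⁻¹ * w * u₀)⁻¹ * w⁻¹ := by group
        _ = w * w * (cm w u₀)⁻¹ * (w * w)⁻¹ := by rw [e1, conj_eq_mul_cm, pow_two]; group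
        _ = _ := by rw [h1, mul_inv_cancel_right]
    obtain ⟨w', hw', e4⟩ := hH 1 e rfl _ (A.inv_mem (hcA w hw u₀ hu₀)) (by
      rw [pow_one, inv_pow, e2, inv_one])
    have e5 := hE _ hu₁ w' hw'
    rw [cm_pow (hxu w' hw' _ hu₁), cm_eq_one] at e5
    have hv := A.pow_mem hw' (2 ^ e')
    have e6 : u₀ * w⁻¹ * (w' ^ 2 ^ e')⁻¹ ∈ Z := by
      refine (h.mem_Z _).2 ⟨B.mul_mem hu₁ (B.inv_mem (c.le hv)), ?_⟩
      rw [← pow_two, (Commute.inv_right (Commute.symm e5)).mul_pow, pow_two, e3, e4, hee,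
        pow_two_pow_succ, pow_two]
      group
    have e7 : u₀ = u₀ * w⁻¹ * (w' ^ 2 ^ e')⁻¹ * w' ^ 2 ^ e' * w := by group
    rw [e7]
    exact A.mul_mem (A.mul_mem (hZ e6) hv) hw

end Cover

/-- A non-abelian cover of an abelian invariant subgroup has all its squares in `Z`. -/
theorem HS.cover (h : HS ξ B Z) (hF : Nat.card F = Nat.card Z) (c : Co ξ B A F) (hZ : Z ≤ A)
    (hA : ∀ x ∈ A, ∀ y ∈ A, x * y = y * x) (hB : ¬ ∀ u ∈ B, ∀ v ∈ B, u * v = v * u) :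
    ∀ u ∈ B, u * u ∈ Z := by
  obtain ⟨zc⟩ := h.exists_co_Z hF
  have h2 := h.exists_ne hF
  obtain ⟨e, A₁, cA, ha, hf, he, hH⟩ := (h.mono hZ c.le c.inv_N).exists_co_ab zc hA
  rcases e with _ | e'
  · intro u hu
    refine (h.mem_Z _).2 ⟨B.mul_mem hu hu, ?_⟩
    simpa [pow_two] using he _ (c.sq_mem hu)
  have hxu : ∀ x ∈ A, ∀ u ∈ B, x * (u⁻¹ * x * u) = u⁻¹ * x * u * x := fun x hx u hu =>
    hA _ hx _ (c.conj_mem hu hx)
  have hcA : ∀ x ∈ A, ∀ u ∈ B, cm x u ∈ A := fun x hx u hu =>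
    A.mul_mem (A.inv_mem hx) (c.conj_mem hu hx)
  have hpow : ∀ x ∈ A, ∀ u ∈ B, cm x u ^ 2 ^ (e' + 1) = 1 := fun x hx u hu => by
    rw [cm_pow (hxu x hx u hu), cm_eq_one]
    exact h.central _ ((h.mem_Z _).2 ⟨B.pow_mem (c.le hx) _, by
      rw [← pow_two_pow_succ, he x hx]⟩) u hu
  have hZ' : ∀ x ∈ A, ∀ u ∈ B, cm x u ^ 2 ^ e' ∈ Z := fun x hx u hu =>
    (h.mem_Z _).2 ⟨B.pow_mem (cm_mem (c.le hx) hu) _, by rw [← pow_two_pow_succ, hpow x hx u hu]⟩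
  have hr : ∀ u ∈ B, ∀ x ∈ A, ∀ x' ∈ A, zc.f (cm (x * x') u ^ 2 ^ e') =
      zc.f (cm x u ^ 2 ^ e') + zc.f (cm x' u ^ 2 ^ e') := fun u hu x hx x' hx' => by
    rw [cm_mul_left, (pz_mul h zc c hA (hcA x hx u hu) (hcA x' hx' u hu) (c.le hx') (hpow x hx u hu)
      (hpow x' hx' u hu)).1]
  obtain ⟨E, hE⟩ := c.lift₂ cA (fun u x => zc.f (cm x u ^ 2 ^ e'))
    (fun u hu u' hu' x hx => by
      rw [cm_mul_right, (pz_mul h zc c hA (hcA x hx u hu) (hcA x hx u' hu') hu' (hpow x hx u hu)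
        (hpow x hx u' hu')).2])
    hr (fun n hn x hx => by rw [cm_eq_one.2 (hA x hx n hn), one_pow, zc.f_one])
    (fun u hu n hn => by
      obtain ⟨w, hw, rfl⟩ := hH (e' + 1) 1 (by omega) n (cA.le hn)
        ((pow_eq_one_iff_f h zc c cA hf he (cA.le hn)).1 (cA.f_of_mem hn))
      rw [pow_one, pow_two, hr u hu w hw w hw, CharTwo.add_self_eq_zero])
  have hEq : ∀ p q, E (c.a * p) (zc.a * q) = zc.a * E p q := fun p q => by
    obtain ⟨u, hu, rfl⟩ := c.surj p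
    obtain ⟨x, hx, rfl⟩ := cA.surj q
    rw [← c.equi u hu, ← ha, ← cA.equi x hx, hE _ (c.inv u hu) _ (cA.inv x hx), hE u hu x hx,
      ← map_cm, ← map_pow, zc.equi _ (hZ' x hx u hu), ha]
  have hE0 : ¬ ∀ p q, E p q = 0 := fun h0 => hB (cover_E h zc c hA cA hf he hH hZ ha rfl
    fun u hu x hx => zc.eq_one (hZ' x hx u hu) (by rw [← hE u hu x hx, h0]))
  rcases e' with _ | e''
  swap
  · refine absurd (idem_eq_zero h2 c.prim.good zc.prim.good E hEq fun p q => ?_) hE0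
    obtain ⟨u, hu, rfl⟩ := c.surj p
    obtain ⟨x, hx, rfl⟩ := cA.surj q
    have key : ∀ x ∈ A, ∃ y ∈ A, cm x u = y ^ 2 ∧ E (c.f u) (cA.f x) = cA.f y := fun x hx => by
      obtain ⟨y, hy, e1⟩ := hH _ 1 (by omega) _ (hcA x hx u hu) (hpow x hx u hu)
      rw [pow_one] at e1
      exact ⟨y, hy, e1, by rw [hE u hu x hx, hf, e1, ← pow_mul, ← pow_succ']⟩
    obtain ⟨y, hy, e1, e2⟩ := key x hx
    obtain ⟨y', hy', e3, e4⟩ := key y hy
    rw [e2, e4, ← CharTwo.add_eq_zero, add_comm, ← cA.add y hy y' hy',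
      pow_eq_one_iff_f h zc c cA hf he (A.mul_mem hy hy')]
    have e5 := cm_eq_one.2 (hA x hx _ (c.sq_mem hu))
    have hc : Commute y y' := hA y hy y' hy'
    rw [cm_mul_right, e1, ← conj_pow_inv, conj_eq_mul_cm, e3, (hc.pow_right 2).mul_pow,
      ← mul_assoc, ← pow_add, ← pow_mul, ← hc.mul_pow] at e5
    rw [show 2 ^ (e'' + 1 + 1) = (2 + 2) * 2 ^ e'' by ring, pow_mul, e5, one_pow]
  · by_contra! hu₀
    obtain ⟨u₀, hu₀, hu₀'⟩ := hu₀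
    have hu₀'' : cA.f (u₀ * u₀) ≠ 0 := fun h0 => hu₀' ((h.mem_Z _).2 ⟨B.mul_mem hu₀ hu₀, by
      simpa [pow_two] using (pow_eq_one_iff_f h zc c cA hf he (c.sq_mem hu₀)).1 h0⟩)
    have hcm : ∀ u ∈ B, ∀ v ∈ B, cm u v ∈ A := fun u hu v hv => c.comm_mem hu hv
    have hconj : ∀ x ∈ A, ∀ u ∈ B, cA.f (u⁻¹ * x * u) = cA.f x := fun x hx u hu => by
      rw [conj_eq_mul_cm, cA.add _ hx _ (hcA x hx u hu),
        (pow_eq_one_iff_f h zc c cA hf he (hcA x hx u hu)).2 (hpow x hx u hu), add_zero]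
    have hcm0 : ∀ x ∈ A, ∀ u ∈ B, cA.f (cm x u) = 0 := fun x hx u hu =>
      (pow_eq_one_iff_f h zc c cA hf he (hcA x hx u hu)).2 (hpow x hx u hu)
    have hcm0' : ∀ x ∈ A, ∀ u ∈ B, cA.f (cm u x) = 0 := fun x hx u hu => by
      rw [cm_symm, cA.f_inv (hcA x hx u hu), hcm0 x hx u hu]
    obtain ⟨C, hC⟩ := c.lift₂ c (fun u v => cA.f (cm u v))
      (fun u hu u' hu' v hv => by
        rw [cm_mul_left, cA.add _ (c.conj_mem hu' (hcm u hu v hv)) _ (hcm u' hu' v hv),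
          hconj _ (hcm u hu v hv) u' hu'])
      (fun u hu v hv v' hv' => by
        rw [cm_mul_right, cA.add _ (hcm u hu v' hv') _ (c.conj_mem hv' (hcm u hu v hv)),
          hconj _ (hcm u hu v hv) v' hv', add_comm])
      (fun n hn v hv => hcm0 n hn v hv) fun u hu n hn => hcm0' n hn u hu
    have hsq : ∀ u ∈ B, ∀ v ∈ B, cA.f (u * v * (u * v)) =
        cA.f (u * u) + cA.f (v * v) + C (c.f u) (c.f v) := fun u hu v hv => by
      have h1 := hcm u hu _ (B.inv_mem hv)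
      rw [mul_sq_eq, cA.add _ (A.mul_mem (c.sq_mem hu) h1) _ (c.sq_mem hv),
        cA.add _ (c.sq_mem hu) _ h1, ← c.f_inv hv, hC u hu _ (B.inv_mem hv), add_right_comm]
    obtain ⟨S, hS⟩ := c.lift_fun (fun u => cA.f (u * u)) fun u hu n hn => by
      rw [hsq u hu n (c.le hn), c.f_of_mem hn, map_zero, cA.f_of_mem (cA.sq_mem hn), add_zero,
        add_zero]
    obtain ⟨σ, τ, hl⟩ := quad_eq (a := c.a) (l := zc.a) S C (fun p q => by
        obtain ⟨u, hu, rfl⟩ := c.surj p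
        obtain ⟨v, hv, rfl⟩ := c.surj q
        rw [← c.add u hu v hv, hS _ (B.mul_mem hu hv), hS u hu, hS v hv, hsq u hu v hv])
      (fun p => by
        obtain ⟨u, hu, rfl⟩ := c.surj p
        rw [← c.equi u hu, hS _ (c.inv u hu), hS u hu, ← map_mul, cA.equi _ (c.sq_mem hu), ha])
      ⟨c.f u₀, by rw [hS u₀ hu₀]; exact hu₀''⟩
    refine hE0 fun p q => cubic_eq_zero h2 c.prim.good (hl ▸ zc.prim.good) E.flip (fun x y => ?_)
      hu₀'' (c' := c.f u₀) (fun e => hu₀'' (cA.f_of_mem (cA.sq_mem ((c.ker u₀ hu₀).1 e)))) ?_ q p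
    · rw [← hl]; exact hEq y x
    · change E (c.f u₀) (cA.f (u₀ * u₀)) = 0
      rw [hE u₀ hu₀ _ (c.sq_mem hu₀), cm_eq_one.2 (mul_assoc u₀ u₀ u₀), one_pow, zc.f_one]

end Cfsg.Lib.Shaw
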