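import Cfsg.Agent.Shaw.Main
import Cfsg.Agent.Perm.FieldOfEnd

/-!
Suzuki 2-groups with a solvable transitive automorphism group, IV: the order of `ξ` divides
`|Z| - 1` as soon as it divides a power of this number.
-/

set_option autoImplicit false

namespace Cfsg.Lib.Shaw

open Cfsg.Lib.Suz Cfsg.Lib.Chev.FieldAut

universe u

variable {G : Type u} [Group G] {ξ : MulAut G} {P Z : Subgroup G} {F : Type*} [Field F]

theorem exists_pow_invol (hP : IsPGroup 2 P) {x : G} (hx : x ∈ P) (hx1 : x ≠ 1) :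
    ∃ m : ℕ, x ^ m ≠ 1 ∧ x ^ m * x ^ m = 1 := by
  classical
  obtain ⟨n, hn⟩ := hP ⟨x, hx⟩
  have hn' : x ^ 2 ^ n = 1 := congrArg Subtype.val hn
  have hex : ∃ n, x ^ 2 ^ n = 1 := ⟨n, hn'⟩
  obtain ⟨m, hm⟩ : ∃ m, Nat.find hex = m + 1 := Nat.exists_eq_succ_of_ne_zero (fun e => hx1 (by
    simpa [e] using Nat.find_spec hex))
  exact ⟨2 ^ m, Nat.find_min hex (by omega), by rw [← pow_two_pow_succ, ← hm, Nat.find_spec hex]⟩

theorem pow_eq_one_of_fix (hP : IsPGroup 2 P) (hZ : ∀ x, x ∈ Z ↔ x ∈ P ∧ x * x = 1)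
    (zc : Co ξ Z ⊥ F) {k : ℕ} {x : G} (hx : x ∈ P) (hx1 : x ≠ 1) (h : (ξ ^ k) x = x) :
    zc.a ^ k = 1 := by
  obtain ⟨m, h1, h2⟩ := exists_pow_invol hP hx hx1
  have h3 : x ^ m ∈ Z := (hZ _).2 ⟨P.pow_mem hx m, h2⟩
  have h4 := zc.f_pow_apply k h3
  rw [map_pow, h] at h4
  exact mul_right_cancel₀ (fun e => h1 (zc.eq_one h3 e)) (h4.symm.trans (one_mul _).symm)

theorem eq_of_fix_comm (hP : IsPGroup 2 P) {η : MulAut G} {N : ℕ} (hN : Odd N) {x : G}
    (hx : (η ^ N) x = x) (hc : η x * x⁻¹ ∈ P) (h : η (η x * x⁻¹) = η x * x⁻¹) : η x = x := by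
  generalize hcc : η x * x⁻¹ = c at hc h
  have h1 : η x = c * x := by rw [← hcc, inv_mul_cancel_right]
  have h2 : ∀ k : ℕ, (η ^ k) x = c ^ k * x := fun k => by
    induction k with
    | zero => simp
    | succ k ih => rw [pow_succ', MulAut.mul_apply, ih, map_mul, map_pow, h, h1, pow_succ, mul_assoc]
  have h3 : c ^ N = 1 := mul_right_cancel ((h2 N).symm.trans (hx.trans (one_mul x).symm))
  obtain ⟨m, hm⟩ := hP ⟨c, hc⟩
  have h4 : c ^ 2 ^ m = 1 := congrArg Subtype.val hm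
  have h5 : c = 1 := by
    have := pow_gcd_eq_one.2 ⟨h3, h4⟩
    rwa [Nat.Coprime.pow_right m (Nat.coprime_two_right.2 hN), pow_one] at this
  rw [h1, h5, one_mul]

variable [Finite G] [Finite F] [CharP F 2]

theorem H0.per_of (h : H0 ξ P Z) (hF : Nat.card F = Nat.card Z) (zc : Co ξ Z ⊥ F) {j : ℕ}
    (hj : ξ ^ (Nat.card Z - 1) ^ j = 1) : ∀ x ∈ P, (ξ ^ (Nat.card Z - 1)) x = x := by
  classical
  obtain ⟨n, hn2, hn⟩ := exists_card zc.prim.big
  have hQ : Nat.card Z - 1 = 2 ^ n - 1 := by rw [← hF, hn]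
  rw [hQ] at hj ⊢
  set Q := 2 ^ n - 1 with hQdef
  have hQodd : Odd Q :=
    Nat.Even.sub_odd Nat.one_le_two_pow (Nat.even_pow.2 ⟨even_two, by omega⟩) odd_one
  set η := ξ ^ Q with hη
  have hηN : ∀ x, (η ^ Q ^ j) x = x := fun x => by
    rw [hη, ← pow_mul, mul_comm, pow_mul, hj, one_pow, MulAut.one_apply]
  have hcomm : ∀ x, ξ (η x) = η (ξ x) := fun x => by
    rw [← MulAut.mul_apply, ← MulAut.mul_apply, hη, ← pow_succ, ← pow_succ']
  suffices key : ∀ (m : ℕ) (R : Subgroup G), Nat.card R = m → R ≤ P → (∀ x ∈ R, ξ x ∈ R) →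
      ∀ x ∈ R, η x = x from key _ P rfl le_rfl h.inv
  intro m
  induction m using Nat.strong_induction_on with
  | _ m ih0 => ?_
  intro R hR hRP hRi
  have ih : ∀ L ≤ R, (∀ x ∈ L, ξ x ∈ L) → ¬ R ≤ L → ∀ x ∈ L, η x = x := fun L hL hLi hne =>
    ih0 _ (hR ▸ lt_of_le_of_ne (Subgroup.card_le_of_le hL) fun e =>
      hne (Subgroup.eq_of_le_of_card_ge hL e.ge).ge) L rfl (hL.trans hRP) hLi
  have hRη : ∀ x ∈ R, η x ∈ R := fun x hx => pow_inv_mem hRi Q hx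
  by_contra! h0
  obtain ⟨x₀, hx₀, hx₀'⟩ := h0
  have hx₀1 : x₀ ≠ 1 := fun e => hx₀' (by rw [e, map_one])
  have hclos : ∀ s : Set G, (∀ x ∈ s, ξ x ∈ s) → ∀ x ∈ Subgroup.closure s,
      ξ x ∈ Subgroup.closure s := fun s hs x hx => by
    induction hx using Subgroup.closure_induction with
    | mem x hx => exact Subgroup.subset_closure (hs x hx)
    | one => rw [map_one]; exact Subgroup.one_mem _
    | mul x y _ _ h1 h2 => rw [map_mul]; exact Subgroup.mul_mem _ h1 h2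
    | inv x _ h1 => rw [map_inv]; exact Subgroup.inv_mem _ h1
  -- `R = [R, η]`
  have hS : ∀ L : Subgroup G, (∀ x ∈ R, η x * x⁻¹ ∈ L) → R ≤ L := fun L hL => by
    have h1 : R ≤ Subgroup.closure {c | ∃ x ∈ R, η x * x⁻¹ = c} := by
      by_contra hne
      refine hx₀' (eq_of_fix_comm h.two hQodd.pow (hηN x₀)
        (hRP (R.mul_mem (hRη _ hx₀) (R.inv_mem hx₀))) (ih _ ?_ (hclos _ ?_) hne _
          (Subgroup.subset_closure ⟨x₀, hx₀, rfl⟩)))
      · refine (Subgroup.closure_le _).2 ?_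
        rintro _ ⟨x, hx, rfl⟩
        exact R.mul_mem (hRη x hx) (R.inv_mem hx)
      · rintro _ ⟨x, hx, rfl⟩
        exact ⟨ξ x, hRi x hx, by rw [map_mul, map_inv, hcomm]⟩
    refine h1.trans ((Subgroup.closure_le _).2 ?_)
    rintro _ ⟨x, hx, rfl⟩
    exact hL x hx
  -- squares are central
  let Φ := Subgroup.closure {y | ∃ x ∈ R, x * x = y}
  have hΦR : Φ ≤ R := (Subgroup.closure_le _).2 (by rintro _ ⟨x, hx, rfl⟩; exact R.mul_mem hx hx)
  have hsqΦ : ∀ x ∈ R, x * x ∈ Φ := fun x hx => Subgroup.subset_closure ⟨x, hx, rfl⟩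
  have hΦη : ∀ f ∈ Φ, η f = f := ih Φ hΦR (hclos _ (by
      rintro _ ⟨x, hx, rfl⟩
      exact ⟨ξ x, hRi x hx, (map_mul ξ x x).symm⟩))
    (exists_sq_closure (h.two.to_le hRP) fun e => hx₀1 (Subgroup.mem_bot.1 (e ▸ hx₀)))
  have hΦn : ∀ f ∈ Φ, ∀ x ∈ R, x⁻¹ * f * x ∈ Φ := fun f hf x hx => by
    rw [conj_eq_mul_cm]; exact Φ.mul_mem hf (cm_mem_of_sq hsqΦ (hΦR hf) hx)
  have hΦc : ∀ f ∈ Φ, ∀ y ∈ R, f * y = y * f := fun f hf y hy => by
    refine Subgroup.mem_centralizer_singleton_iff.1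
      (hS (Subgroup.centralizer {f}) (fun x hx => ?_) hy) |>.symm
    have h1 := hΦη _ (hΦn f hf x hx)
    rw [map_mul, map_mul, map_inv, hΦη f hf] at h1
    rw [Subgroup.mem_centralizer_singleton_iff]
    calc η x * x⁻¹ * f = η x * (x⁻¹ * f * x) * x⁻¹ := by group
      _ = _ := by rw [← h1]; group
  have hcmZ : ∀ x ∈ R, ∀ y ∈ R, cm x y ∈ Z := fun x hx y hy => by
    refine (h.mem_Z _).2 ⟨hRP (cm_mem hx hy), ?_⟩
    have h1 := cm_eq_one.2 (hΦc _ (hsqΦ x hx) y hy)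
    rwa [cm_mul_left, mul_assoc x⁻¹, hΦc _ (cm_mem_of_sq hsqΦ hx hy) x hx,
      inv_mul_cancel_left] at h1
  have hsq : ∀ x ∈ R, x * x ∈ Z := by
    let D : Subgroup G :=
      { carrier := {x | x ∈ R ∧ x * x ∈ Z}
        one_mem' := ⟨R.one_mem, by rw [mul_one]; exact Z.one_mem⟩
        mul_mem' := fun {x y} hx hy => ⟨R.mul_mem hx.1 hy.1, by
          rw [mul_sq_eq]
          exact Z.mul_mem (Z.mul_mem hx.2 (hcmZ x hx.1 _ (R.inv_mem hy.1))) hy.2⟩
        inv_mem' := fun {x} hx => ⟨R.inv_mem hx.1, by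
          rw [← mul_inv_rev]; exact Z.inv_mem hx.2⟩ }
    refine fun x hx => (hS D (fun y hy => ⟨R.mul_mem (hRη y hy) (R.inv_mem hy), ?_⟩) hx).2
    have h1 := hcmZ _ (hRη y hy) _ (R.inv_mem (R.inv_mem hy))
    rw [mul_sq_eq, ← map_mul, hΦη _ (hsqΦ y hy), ← h.central _ h1 _ (hRP (R.mul_mem hy hy)),
      ← mul_inv_rev, mul_inv_cancel_right]
    exact h1
  have hZR : Z ≤ R := h.Z_le_of_ne hRP hRi hx₀ hx₀1
  have hcard := (h.mono hZR hRP hRi).card_le hF zc hsq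
  -- the section `R / Z`
  obtain ⟨A, _, ⟨S⟩⟩ := exists_sec (E := (Set.univ : Set Unit)) (act := fun _ x => ξ x) hZR
    (fun _ _ => map_mul ξ) (fun _ _ => hRi) (fun _ _ => h.Z_inv) fun x hx y hy => by
      simpa only [cm, mul_assoc] using hcmZ x hx y hy
  have := S.finite
  let ρ : AddMonoid.End A := S.ρ ()
  have hρ : ∀ (k : ℕ), ∀ x ∈ R, S.π ((ξ ^ k) x) = (ρ ^ k) (S.π x) := fun k x hx => by
    induction k with
    | zero => simp
    | succ k ih =>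
      rw [pow_succ', MulAut.mul_apply, S.π_act () trivial _ (pow_inv_mem hRi k hx), ih, pow_succ']
      rfl
  let T : A →+ A := (ρ ^ Q - 1 : AddMonoid.End A)
  have hT : ∀ b, T b = (ρ ^ Q) b - b := fun b => rfl
  have hTs : Function.Surjective T := fun b => by
    obtain ⟨y, hy, rfl⟩ := S.π_surj b
    let L : Subgroup G :=
      { carrier := {x | x ∈ R ∧ S.π x ∈ T.range}
        one_mem' := ⟨R.one_mem, by rw [S.π_one]; exact T.range.zero_mem⟩
        mul_mem' := fun {x y} hx hy => ⟨R.mul_mem hx.1 hy.1, by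
          rw [S.π_mul _ hx.1 _ hy.1]; exact T.range.add_mem hx.2 hy.2⟩
        inv_mem' := fun {x} hx => ⟨R.inv_mem hx.1, by
          rw [S.π_inv hx.1]; exact T.range.neg_mem hx.2⟩ }
    refine (hS L (fun x hx => ⟨R.mul_mem (hRη x hx) (R.inv_mem hx), S.π x, ?_⟩) hy).2
    rw [S.π_mul _ (hRη x hx) _ (R.inv_mem hx), S.π_inv hx, hη, hρ Q x hx, hT, sub_eq_add_neg]
  have hTi : Function.Injective T := Finite.injective_iff_surjective.2 hTs
  have hx₀Z : S.π x₀ ≠ 0 := fun e => hx₀' (by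
    have h1 := (S.π_eq_zero x₀ hx₀).1 e
    refine zc.inj (pow_inv_mem h.Z_inv Q h1) h1 ?_
    rw [zc.f_pow_apply Q h1, hQdef, ← hn, pow_card_sub_one zc.prim.ne, one_mul])
  obtain ⟨K, _, _, ε, -, hε, -⟩ := Cfsg.Lib.Perm.exists_field_of_irreducible (A := A) {ρ}
    (by rintro _ rfl _ rfl; rfl) (fun W hW => by
      let L : Subgroup G :=
        { carrier := {x | x ∈ R ∧ S.π x ∈ W}
          one_mem' := ⟨R.one_mem, by rw [S.π_one]; exact W.zero_mem⟩
          mul_mem' := fun {x y} hx hy => ⟨R.mul_mem hx.1 hy.1, by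
            rw [S.π_mul _ hx.1 _ hy.1]; exact W.add_mem hx.2 hy.2⟩
          inv_mem' := fun {x} hx => ⟨R.inv_mem hx.1, by
            rw [S.π_inv hx.1]; exact W.neg_mem hx.2⟩ }
      by_cases hRL : R ≤ L
      · refine Or.inr (eq_top_iff.2 fun b _ => ?_)
        obtain ⟨y, hy, rfl⟩ := S.π_surj b
        exact (hRL hy).2
      · refine Or.inl (eq_bot_iff.2 fun b hb => ?_)
        obtain ⟨y, hy, rfl⟩ := S.π_surj b
        have h1 := ih L (fun x hx => hx.1) (fun x hx => ⟨hRi x hx.1, by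
          rw [S.π_act () trivial x hx.1]; exact hW ρ rfl _ hx.2⟩) hRL y ⟨hy, hb⟩
        refine AddSubgroup.mem_bot.2 (hTi ?_)
        rw [hT, ← hρ Q y hy, ← hη, h1, sub_self, map_zero]) hx₀Z
  obtain ⟨l, hl⟩ := hε ρ rfl
  have hlk : ∀ (k : ℕ) (c : K), (ρ ^ k) (ε c) = ε (l ^ k * c) := fun k c => by
    induction k with
    | zero => simp
    | succ k ih => rw [pow_succ', pow_succ', mul_assoc, ← hl, ← ih]; rfl
  obtain ⟨c₀, hc₀⟩ := ε.surjective (S.π x₀)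
  have hc₀0 : c₀ ≠ 0 := fun e => hx₀Z (by rw [← hc₀, e, map_zero])
  have hlN : l ^ Q ^ j = 1 := by
    have h1 := hρ (Q ^ j) x₀ hx₀
    rw [hj, MulAut.one_apply, ← hc₀, hlk] at h1
    exact mul_right_cancel₀ hc₀0 ((ε.injective h1).symm.trans (one_mul _).symm)
  have hQ0 : 0 < Q := hQodd.pos
  have hl0 : l ≠ 0 := fun e => by
    rw [e, zero_pow (pow_pos hQ0 j).ne'] at hlN
    exact zero_ne_one hlN
  -- the order of the section
  have := Fact.mk Nat.prime_two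
  obtain ⟨m', hm'⟩ := IsPGroup.iff_card.1 (h.two.to_le hRP)
  obtain ⟨d, -, hd⟩ := (Nat.dvd_prime_pow Nat.prime_two).1
    (hm' ▸ ⟨_, S.card⟩ : Nat.card A ∣ 2 ^ m')
  have hK : Fintype.card K = 2 ^ d := by
    rw [← Nat.card_eq_fintype_card, Nat.card_congr ε.toEquiv, hd]
  have hd0 : 0 < d := Nat.pos_of_ne_zero fun e => by
    have := Fintype.one_lt_card (α := K)
    rw [hK, e] at this
    omega
  have hd2 : d ≤ 2 * n := by
    rw [S.card, hd, ← hF, hn, ← pow_add, ← pow_mul] at hcard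
    have := (Nat.pow_le_pow_iff_right one_lt_two).1 hcard
    omega
  have hl1 : l ^ (2 ^ d - 1) = 1 := hK ▸ FiniteField.pow_card_sub_one_eq_one l hl0
  have hfix : ∃ x ∈ R, x ≠ 1 ∧ (ξ ^ (2 ^ d - 1)) x = x := by
    generalize 2 ^ d - 1 = k at hl1
    by_contra! hno
    let ψ : R → R := fun y =>
      ⟨(y : G)⁻¹ * (ξ ^ k) y, R.mul_mem (R.inv_mem y.2) (pow_inv_mem hRi k y.2)⟩
    have hψ : Function.Injective ψ := by
      intro y y' e
      have e1 : (y : G)⁻¹ * (ξ ^ k) y = (y' : G)⁻¹ * (ξ ^ k) y' := congrArg Subtype.val e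
      have e2 : (ξ ^ k) (y * (y' : G)⁻¹) = y * (y' : G)⁻¹ := by
        rw [map_mul, map_inv]
        calc (ξ ^ k) y * ((ξ ^ k) y')⁻¹ = y * ((y : G)⁻¹ * (ξ ^ k) y) * ((ξ ^ k) y')⁻¹ := by group
          _ = _ := by rw [e1]; group
      by_contra hne
      exact hno _ (R.mul_mem y.2 (R.inv_mem y'.2))
        (fun h => hne (Subtype.ext (mul_inv_eq_one.1 h))) e2
    obtain ⟨y, hy⟩ := Finite.injective_iff_surjective.1 hψ ⟨x₀, hx₀⟩
    have e1 : (y : G)⁻¹ * (ξ ^ k) y = x₀ := congrArg Subtype.val hy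
    apply hx₀Z
    obtain ⟨c, hc⟩ := ε.surjective (S.π y)
    rw [← e1, S.π_mul _ (R.inv_mem y.2) _ (pow_inv_mem hRi k y.2), S.π_inv y.2, hρ k _ y.2, ← hc,
      hlk, hl1, one_mul, neg_add_cancel]
  obtain ⟨x, hx, hx1, hxf⟩ := hfix
  have ha := pow_eq_one_of_fix h.two h.mem_Z zc (hRP hx) hx1 hxf
  have hpd : 2 ^ d = 2 ^ d - 1 + 1 := (Nat.sub_add_cancel Nat.one_le_two_pow).symm
  have hFr : Fr F ^ d = 1 := zc.prim.good.ext₁ zc.prim.big (by
    rw [Fr_pow_apply, hpd, pow_succ, ha, one_mul]; rfl)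
  have hdvd : Q ∣ 2 ^ d - 1 := by
    have := Fintype.ofFinite F
    rw [hQdef, ← hn, Nat.card_eq_fintype_card, ← FiniteField.forall_pow_eq_one_iff]
    intro u
    have h1 := Fr_pow_apply d (u : F)
    rw [hFr, hpd, pow_succ] at h1
    exact Units.ext (by
      rw [Units.val_pow_eq_pow_val]
      exact mul_right_cancel₀ u.ne_zero (h1.symm.trans (one_mul _).symm))
  have hnd : n ∣ d := by
    have h1 := Nat.pow_sub_one_gcd_pow_sub_one 2 n d
    rw [Nat.gcd_eq_left hdvd] at h1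
    have h2 : 2 ^ n = 2 ^ n.gcd d := by
      have := Nat.one_le_two_pow (n := n)
      have := Nat.one_le_two_pow (n := n.gcd d)
      omega
    exact Nat.gcd_eq_left_iff_dvd.1 (Nat.pow_right_injective le_rfl h2).symm
  have hl2 : l ^ (Q * (Q + 2)) = 1 := by
    obtain ⟨t, rfl⟩ := hnd
    have ht : t ≤ 2 := Nat.le_of_mul_le_mul_left (by rwa [mul_comm 2] at hd2) (by omega : 0 < n)
    have h1 : 1 ≤ 2 ^ n := Nat.one_le_two_pow
    interval_cases t
    · omega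
    · rw [mul_one] at hl1
      rw [pow_mul, hl1, one_pow]
    · rw [← hl1]
      congr 1
      rw [pow_mul, hQdef]
      obtain ⟨y, hy⟩ := Nat.exists_eq_add_of_le h1
      rw [hy, Nat.add_sub_cancel_left]
      exact (Nat.sub_eq_of_eq_add (by ring)).symm
  have hlQ : l ^ Q = 1 := by
    rw [← orderOf_dvd_iff_pow_eq_one] at hl2 hlN ⊢
    refine Nat.Coprime.dvd_of_dvd_mul_right (Nat.Coprime.coprime_dvd_left hlN ?_) hl2
    refine Nat.Coprime.pow_left j ?_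
    rw [add_comm, Nat.coprime_add_self_right]
    exact Nat.coprime_two_right.2 hQodd
  refine hx₀Z (hTi ?_)
  rw [hT, ← hc₀, hlk, hlQ, one_mul, sub_self, map_zero]

end Cfsg.Lib.Shaw
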